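import Cfsg.Agent.RankTwoTwo.Four

/-! Layers of a 2-group under a dihedral group of order ten. -/

set_option autoImplicit false

namespace CfsgLib.RankFourTwo.Five

open scoped commutatorElement

/-- A permutation with `S ^ p = 1` moves a multiple of `p` points. -/
theorem card_mod {α : Type*} [Finite α] {p : ℕ} [Fact p.Prime] (S : Equiv.Perm α) (hS : S ^ p = 1) :
    Nat.card α ≡ Nat.card {a // S a = a} [MOD p] := by
  have hp : IsPGroup p (Subgroup.zpowers S) := by
    rcases (Nat.dvd_prime (Fact.out : p.Prime)).mp (orderOf_dvd_of_pow_eq_one hS) with h | h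
    · exact IsPGroup.of_card (n := 0) (by rw [Nat.card_zpowers, h, pow_zero])
    · exact IsPGroup.of_card (n := 1) (by rw [Nat.card_zpowers, h, pow_one])
  have h := hp.card_modEq_card_fixedPoints α
  refine h.trans (?_ : Nat.card _ ≡ _ [MOD p])
  refine (fun e => by rw [e]) (?_ : Nat.card _ = Nat.card {a // S a = a})
  refine Nat.card_congr (Equiv.subtypeEquivRight fun a => ?_)
  constructor
  · intro ha; exact ha ⟨S, Subgroup.mem_zpowers S⟩
  · rintro ha ⟨g, hg⟩
    obtain ⟨k, rfl⟩ := Subgroup.mem_zpowers_iff.mp hg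
    exact Equiv.Perm.zpow_apply_eq_self_of_apply_eq_self ha k

/-- An involution inverting a fixed-point-free automorphism of an elementary group of order 16 has a
centralizer of order 4, made of norms. -/
theorem invol {V : Type*} [CommGroup V] [Finite V] (hc : Nat.card V = 16) (he : ∀ v : V, v * v = 1)
    (T S : MulAut V) (hT : T * T = 1) (hST : S * T * S = T) (hS : ∀ v, S (S v) = v → v = 1) :
    (∀ v, T v = v → ∃ u, u * T u = v) ∧ Nat.card {v // T v = v} = 4 := by
  classical
  let f : V →* V := MonoidHom.mk' (fun v => v * T v) (fun a b => by rw [map_mul]; exact mul_mul_mul_comm _ _ _ _)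
  let C : Subgroup V := T.toMonoidHom.eqLocus (MonoidHom.id V)
  have hmemC : ∀ v, v ∈ C ↔ T v = v := fun _ => Iff.rfl
  have hker : f.ker = C := by
    ext v
    rw [MonoidHom.mem_ker, hmemC]
    show v * T v = 1 ↔ _
    exact ⟨fun h => mul_left_cancel (h.trans (he v).symm), fun h => by rw [h]; exact he v⟩
  have hTT : ∀ v, T (T v) = v := fun v => by rw [← MulAut.mul_apply, hT, MulAut.one_apply]
  have him : f.range ≤ C := by
    rintro _ ⟨v, rfl⟩
    rw [hmemC]
    show T (v * T v) = v * T v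
    rw [map_mul, hTT, mul_comm]
  have hinj : Function.Injective (fun ab : C × C => (ab.1 : V) * S ab.2) := by
    rintro ⟨a, b⟩ ⟨a', b'⟩ h
    have h : (a : V) * S b = a' * S b' := h
    have e1 : ((a : V) * a') = S (b * b') := by
      rw [map_mul]
      calc (a : V) * a' = a * a' * (S b * S b) := by rw [he, mul_one]
        _ = a * S b * (a' * S b) := mul_mul_mul_comm _ _ _ _
        _ = a' * S b' * (a' * S b) := by rw [h]
        _ = a' * a' * (S b' * S b) := mul_mul_mul_comm _ _ _ _
        _ = _ := by rw [he, one_mul, mul_comm]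
    have h1 : T (S ((b : V) * b')) = S (b * b') := by rw [← e1]; exact (C.mul_mem a.2 a'.2)
    have h2 : T ((b : V) * b') = b * b' := C.mul_mem b.2 b'.2
    have h3 : S (T (S ((b : V) * b'))) = T (b * b') := by
      rw [← MulAut.mul_apply, ← MulAut.mul_apply, hST]
    rw [h1, h2] at h3
    have hb : (b : V) * b' = 1 := hS _ h3
    have hbb : b = b' := Subtype.ext (mul_right_cancel (hb.trans (he (b' : V)).symm))
    subst hbb
    exact Prod.ext (Subtype.ext (mul_right_cancel h)) rfl
  have h1 := Nat.card_le_card_of_injective _ hinj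
  rw [Nat.card_prod, hc] at h1
  have h2 := f.ker.card_mul_index
  rw [Subgroup.index_ker, hker, hc] at h2
  have h3 := Subgroup.card_le_of_le him
  have hC4 : Nat.card C = 4 := by
    have hle : Nat.card C ≤ 4 := by nlinarith
    have : 16 ≤ Nat.card C * Nat.card C := by nlinarith
    nlinarith
  refine ⟨fun v hv => ?_, ?_⟩
  · rw [hC4] at h2
    have heq := Subgroup.eq_of_le_of_card_ge him (by omega)
    exact (heq.symm ▸ (hmemC v).mpr hv : v ∈ f.range)
  · rw [← hC4]
    exact Nat.card_congr (Equiv.subtypeEquivRight fun v => (hmemC v).symm)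

variable {X : Type*} [Group X] [Finite X]

/-- Generators commuting and squaring into a normalized subgroup give a section. -/
theorem gen_section {k : ℕ} (h4 : Cfsg.SectionalPRankLE 2 k X) (G : Set X) (D : Subgroup X)
    (hDH : D ≤ Subgroup.closure G) (hn : ∀ g ∈ G, ∀ d ∈ D, g * d * g⁻¹ ∈ D)
    (hc : ∀ a ∈ G, ∀ b ∈ G, ⁅a, b⁆ ∈ D) (hs : ∀ a ∈ G, a ^ 2 ∈ D) :
    Nat.card (Subgroup.closure G) ≤ 2 ^ k * Nat.card D := by
  classical
  set H := Subgroup.closure G
  have hN : H ≤ Subgroup.normalizer (D : Set X) := by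
    refine (Subgroup.closure_le _).mpr fun g hg => ?_
    have hall : ∀ n : ℕ, ∀ d ∈ D, g ^ n * d * (g ^ n)⁻¹ ∈ D := by
      intro n
      induction n with
      | zero => intro d hd; simpa using hd
      | succ n ih =>
        intro d hd
        have := hn g hg _ (ih d hd)
        rwa [show g * (g ^ n * d * (g ^ n)⁻¹) * g⁻¹ = g ^ (n + 1) * d * (g ^ (n + 1))⁻¹ by
          rw [pow_succ' g n]; group] at this
    rw [SetLike.mem_coe, Subgroup.mem_normalizer_iff]
    refine fun d => ⟨hn g hg d, fun h => ?_⟩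
    have := hall (orderOf g - 1) _ h
    have e : g ^ (orderOf g - 1) = g⁻¹ := eq_inv_of_mul_eq_one_left (by
      rw [← pow_succ, Nat.sub_add_cancel (orderOf_pos g), pow_orderOf_eq_one])
    rwa [e, show g⁻¹ * (g * d * g⁻¹) * g⁻¹⁻¹ = d by group] at this
  let N := Subgroup.normalizer (D : Set X)
  haveI : (D.subgroupOf N).Normal := Subgroup.normal_in_normalizer
  let q := QuotientGroup.mk' (D.subgroupOf N)
  let Gq : Set (N ⧸ D.subgroupOf N) := q '' (Subtype.val ⁻¹' G)
  have hcq : ∀ a ∈ Gq, ∀ b ∈ Gq, a * b = b * a := by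
    rintro _ ⟨a, ha, rfl⟩ _ ⟨b, hb, rfl⟩
    rw [← commutatorElement_eq_one_iff_mul_comm, ← map_commutatorElement]
    exact (QuotientGroup.eq_one_iff _).mpr (hc _ ha _ hb)
  haveI := Subgroup.isMulCommutative_closure hcq
  have hmem : ∀ x (hx : x ∈ H), q ⟨x, hN hx⟩ ∈ Subgroup.closure Gq := by
    intro x hx
    induction hx using Subgroup.closure_induction with
    | mem z hz => exact Subgroup.subset_closure ⟨_, hz, rfl⟩
    | one => exact (Subgroup.closure Gq).one_mem
    | mul a b ha hb iha ihb => exact (Subgroup.closure Gq).mul_mem iha ihb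
    | inv a ha iha => exact (Subgroup.closure Gq).inv_mem iha
  have hcomm : ∀ a ∈ Subgroup.closure Gq, ∀ b ∈ Subgroup.closure Gq, a * b = b * a := fun a ha b hb =>
    congrArg Subtype.val (IsMulCommutative.is_comm.comm (⟨a, ha⟩ : Subgroup.closure Gq) ⟨b, hb⟩)
  have hsq : ∀ a ∈ Subgroup.closure Gq, a ^ 2 = 1 := by
    intro a ha
    induction ha using Subgroup.closure_induction with
    | mem z hz =>
      obtain ⟨b, hb, rfl⟩ := hz
      rw [← map_pow]
      exact (QuotientGroup.eq_one_iff _).mpr (hs _ hb)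
    | one => exact one_pow 2
    | mul a b ha hb iha ihb => rw [(show Commute a b from hcomm a ha b hb).mul_pow, iha, ihb, one_mul]
    | inv a ha iha => rw [inv_pow, iha, inv_one]
  refine CfsgLib.RankTwoTwo.Four.section_bound h4 H D hDH (fun x hx y hy => ?_) (fun x hx => ?_)
  · have := commutatorElement_eq_one_iff_mul_comm.mpr (hcomm _ (hmem x hx) _ (hmem y hy))
    rw [← map_commutatorElement] at this
    exact ((QuotientGroup.eq_one_iff _).mp this : _)
  · have := hsq _ (hmem x hx)
    rw [← map_pow] at this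
    exact ((QuotientGroup.eq_one_iff _).mp this : _)

/-- Sectional rank passes to quotients. -/
theorem sectional_quotient {k : ℕ} (hr : Cfsg.SectionalPRankLE 2 k X) (Z : Subgroup X) [Z.Normal] :
    Cfsg.SectionalPRankLE 2 k (X ⧸ Z) := by
  intro H N hN A hA he
  let π := QuotientGroup.mk' Z
  let f : ↥(H.comap π) →* H ⧸ N :=
    (QuotientGroup.mk' N).comp (π.subgroupComap H)
  have hf : Function.Surjective f :=
    (QuotientGroup.mk'_surjective N).comp
      (π.subgroupComap_surjective_of_surjective H (QuotientGroup.mk'_surjective Z))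
  let e := QuotientGroup.quotientKerEquivOfSurjective f hf
  rw [← Subgroup.card_map_of_injective (f := e.symm.toMonoidHom) e.symm.injective]
  refine hr (H.comap π) f.ker _ ⟨⟨?_⟩⟩ ?_
  · rintro ⟨_, a, ha, rfl⟩ ⟨_, b, hb, rfl⟩
    exact Subtype.ext (by
      simp only [Subgroup.coe_mul, ← map_mul]
      exact congrArg e.symm (congrArg Subtype.val (hA.is_comm.comm ⟨a, ha⟩ ⟨b, hb⟩)))
  · rintro _ ⟨a, ha, rfl⟩
    rw [← map_pow, he a ha, map_one]

/-- The conjugation action on a factor. -/
theorem exists_layerHom (M N : Subgroup X) [M.Normal] [N.Normal] :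
    ∃ ρ : X →* MulAut (M ⧸ N.subgroupOf M), ∀ (x : X) (m : M),
      ρ x (QuotientGroup.mk m) = QuotientGroup.mk ⟨x * m * x⁻¹, (inferInstance : M.Normal).conj_mem m m.2 x⟩ := by
  have hmap : ∀ x : X, (N.subgroupOf M).map (MulAut.conjNormal x : MulAut M).toMonoidHom = N.subgroupOf M := by
    intro x
    ext m
    rw [Subgroup.mem_map, Subgroup.mem_subgroupOf]
    constructor
    · rintro ⟨a, ha, rfl⟩
      show (MulAut.conjNormal x a : X) ∈ N
      rw [MulAut.conjNormal_apply]
      exact (inferInstance : N.Normal).conj_mem _ (Subgroup.mem_subgroupOf.mp ha) x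
    · intro h
      refine ⟨MulAut.conjNormal x⁻¹ m, Subgroup.mem_subgroupOf.mpr ?_, ?_⟩
      · rw [MulAut.conjNormal_apply]
        exact (inferInstance : N.Normal).conj_mem _ h x⁻¹
      · show MulAut.conjNormal x (MulAut.conjNormal x⁻¹ m) = m
        rw [← MulAut.mul_apply, ← map_mul, mul_inv_cancel, map_one, MulAut.one_apply]
  refine ⟨MonoidHom.mk' (fun x => QuotientGroup.congr _ _ (MulAut.conjNormal x : MulAut M) (hmap x)) ?_, ?_⟩
  · intro a b
    apply MulEquiv.ext
    intro v
    obtain ⟨m, rfl⟩ := QuotientGroup.mk_surjective v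
    show QuotientGroup.mk (MulAut.conjNormal (a * b) m) = QuotientGroup.mk (MulAut.conjNormal a (MulAut.conjNormal b m))
    rw [map_mul]; rfl
  · intro x m
    show QuotientGroup.mk (MulAut.conjNormal x m) = _
    exact congrArg _ (Subtype.ext (MulAut.conjNormal_apply x m))

theorem conj_mem_of_comm {N : Subgroup X} {g d : X} (h : ⁅g, d⁆ ∈ N) (hd : d ∈ N) : g * d * g⁻¹ ∈ N := by
  have := N.mul_mem h hd
  rwa [show ⁅g, d⁆ * d = g * d * g⁻¹ by simp only [commutatorElement_def]; group] at this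

theorem card_subgroupOf {N M : Subgroup X} (h : N ≤ M) :
    Nat.card M = Nat.card N * Nat.card (M ⧸ N.subgroupOf M) := by
  rw [← Nat.card_congr (Subgroup.subgroupOfEquivOfLe h).toEquiv]
  exact ((Subgroup.card_eq_card_quotient_mul_card_subgroup (N.subgroupOf M)).trans (mul_comm _ _))

/-- The centralizer of `t` in a layer of order 16 inverted on by it. -/
theorem layer_invol {M N : Subgroup X} [M.Normal] [N.Normal] (hNM : N ≤ M) (hc : Nat.card M = 16 * Nat.card N)
    (hsq : ∀ x ∈ M, x ^ 2 ∈ N) {s t : X} (hs : s ^ 5 = 1) (ht : ∀ x ∈ M, ⁅t ^ 2, x⁆ ∈ N)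
    (hinv : ∀ x ∈ M, ⁅s * t * s * t⁻¹, x⁆ ∈ N) (hfpf : ∀ x ∈ M, ⁅s, x⁆ ∈ N → x ∈ N) :
    ∃ C : Subgroup X, N ≤ C ∧ C ≤ M ∧ Nat.card C = 4 * Nat.card N ∧ (∀ x, x ∈ C ↔ x ∈ M ∧ ⁅t, x⁆ ∈ N) ∧
      (∀ x ∈ C, ∃ u ∈ M, x⁻¹ * (u * (t * u * t⁻¹)) ∈ N) := by
  classical
  obtain ⟨ρ, hρ⟩ := exists_layerHom M N
  have hV : Nat.card (M ⧸ N.subgroupOf M) = 16 := by
    have h1 := card_subgroupOf hNM
    rw [hc, mul_comm] at h1
    exact (Nat.eq_of_mul_eq_mul_left Nat.card_pos h1).symm
  have he : ∀ v : M ⧸ N.subgroupOf M, v * v = 1 := by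
    intro v
    obtain ⟨m, rfl⟩ := QuotientGroup.mk_surjective v
    rw [← pow_two, ← QuotientGroup.mk_pow, QuotientGroup.eq_one_iff]
    exact hsq m m.2
  letI : CommGroup (M ⧸ N.subgroupOf M) :=
    { (inferInstance : Group (M ⧸ N.subgroupOf M)) with
      mul_comm := fun a b => by
        have h : ∀ v : M ⧸ N.subgroupOf M, v⁻¹ = v := fun v => inv_eq_of_mul_eq_one_right (he v)
        rw [← h (a * b), mul_inv_rev, h, h] }
  have hiff : ∀ (g : X) (m : M), ρ g (QuotientGroup.mk m) = QuotientGroup.mk m ↔ ⁅g, (m : X)⁆ ∈ N := by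
    intro g m
    rw [hρ, QuotientGroup.eq_iff_div_mem, div_eq_mul_inv, Subgroup.mem_subgroupOf, commutatorElement_def]
    rfl
  have htriv : ∀ g : X, (∀ x ∈ M, ⁅g, x⁆ ∈ N) → ρ g = 1 := fun g hg => by
    apply MulEquiv.ext
    intro v
    obtain ⟨m, rfl⟩ := QuotientGroup.mk_surjective v
    exact (hiff g m).mpr (hg m m.2)
  have hS : ∀ v, ρ s (ρ s v) = v → v = 1 := by
    intro v hv
    obtain ⟨m, rfl⟩ := QuotientGroup.mk_surjective v
    rw [← MulAut.mul_apply, ← map_mul] at hv
    have h4 : ρ (s * s * (s * s)) (QuotientGroup.mk m) = QuotientGroup.mk m := by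
      rw [map_mul, MulAut.mul_apply, hv, hv]
    have h5 : ρ s (QuotientGroup.mk m) = QuotientGroup.mk m := by
      conv_lhs => rw [← h4, ← MulAut.mul_apply, ← map_mul, show s * (s * s * (s * s)) = s ^ 5 by
        simp only [pow_succ, pow_zero, one_mul, mul_assoc], hs, map_one, MulAut.one_apply]
    exact (QuotientGroup.eq_one_iff _).mpr (hfpf m m.2 ((hiff s m).mp h5))
  have hT : ρ t * ρ t = 1 := by rw [← map_mul, ← pow_two]; exact htriv _ ht
  have hST : ρ s * ρ t * ρ s = ρ t := by
    rw [← map_mul, ← map_mul]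
    conv_lhs => rw [show s * t * s = (s * t * s * t⁻¹) * t by group, map_mul, htriv _ hinv, one_mul]
  obtain ⟨h1, h2⟩ := invol hV he (ρ t) (ρ s) hT hST hS
  let C₀ : Subgroup M := ((ρ t).toMonoidHom.eqLocus (MonoidHom.id _)).comap (QuotientGroup.mk' (N.subgroupOf M))
  have hmem : ∀ x, x ∈ C₀.map M.subtype ↔ x ∈ M ∧ ⁅t, x⁆ ∈ N := by
    intro x
    constructor
    · rintro ⟨m, hm, rfl⟩
      exact ⟨m.2, (hiff t m).mp hm⟩
    · rintro ⟨hx, hx'⟩
      exact ⟨⟨x, hx⟩, (hiff t ⟨x, hx⟩).mpr hx', rfl⟩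
  have hle : N ≤ C₀.map M.subtype := fun x hx => by
    refine (hmem x).mpr ⟨hNM hx, ?_⟩
    rw [commutatorElement_def]
    exact N.mul_mem ((inferInstance : N.Normal).conj_mem x hx t) (N.inv_mem hx)
  refine ⟨C₀.map M.subtype, hle, Subgroup.map_subtype_le _, ?_, hmem, ?_⟩
  · rw [Subgroup.card_map_of_injective M.subtype_injective]
    let π : C₀ →* (ρ t).toMonoidHom.eqLocus (MonoidHom.id _) :=
      (QuotientGroup.mk' (N.subgroupOf M)).subgroupComap _
    have hπ : Function.Surjective π :=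
      (QuotientGroup.mk' _).subgroupComap_surjective_of_surjective _ (QuotientGroup.mk'_surjective _)
    have hk : Nat.card π.ker = Nat.card N := by
      rw [← Nat.card_congr (Subgroup.subgroupOfEquivOfLe hNM).toEquiv]
      refine Nat.card_congr
        { toFun := fun c => ⟨(c : C₀), (QuotientGroup.eq_one_iff _).mp
            (congrArg Subtype.val (MonoidHom.mem_ker.mp c.2))⟩
          invFun := fun n => ⟨⟨(n : M), by
              show QuotientGroup.mk (n : M) ∈ (ρ t).toMonoidHom.eqLocus (MonoidHom.id _)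
              rw [(QuotientGroup.eq_one_iff (n : M)).mpr n.2]; exact one_mem _⟩,
            MonoidHom.mem_ker.mpr (Subtype.ext ((QuotientGroup.eq_one_iff (n : M)).mpr n.2))⟩
          left_inv := fun c => rfl
          right_inv := fun n => rfl }
    have := π.ker.card_mul_index
    rw [Subgroup.index_ker, MonoidHom.range_eq_top.mpr hπ, Subgroup.card_top, hk] at this
    rw [← this, mul_comm, show Nat.card ((ρ t).toMonoidHom.eqLocus (MonoidHom.id _)) = 4 from h2]
  · intro x hx
    obtain ⟨hxM, hxt⟩ := (hmem x).mp hx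
    obtain ⟨v, hv⟩ := h1 _ ((hiff t ⟨x, hxM⟩).mpr hxt)
    obtain ⟨u, rfl⟩ := QuotientGroup.mk_surjective v
    rw [hρ, ← QuotientGroup.mk_mul] at hv
    exact ⟨u, u.2, (QuotientGroup.eq.mp hv.symm : _)⟩

end CfsgLib.RankFourTwo.Five
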