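import Cfsg.Agent.RankFourTwo.Five.Frame

/-! A frame over a group of order two is `Q₈ ∘ D₈`; there is no frame over a group of order four. -/

set_option autoImplicit false

namespace CfsgLib.RankFourTwo.Five

open scoped commutatorElement

variable {X : Type*} [Group X] [Finite X]

/-- The squaring form of two hyperbolic pairs. -/
def form (qa qb qc qd i j k l : Bool) : Bool :=
  ((i && qa) ^^ (j && qb) ^^ (i && j)) ^^ ((k && qc) ^^ (l && qd) ^^ (k && l))

theorem form_count : ∀ qa qb qc qd : Bool,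
    Fintype.card {w : Bool × Bool × Bool × Bool × Bool // form qa qb qc qd w.1 w.2.1 w.2.2.1 w.2.2.2.1 = false} =
      if (qa && qb) ^^ (qc && qd) then 12 else 20 := by decide +kernel

/-- Pairwise commuting generators of two pairs give the quaternion and dihedral factors. -/
theorem dihedral_or_quaternion {A : Subgroup X} (hA : Nat.card A = 8) {a b z : X} (ha : a ∈ A) (hb : b ∈ A)
    (hab : ⁅a, b⁆ = z) (hz : z ≠ 1) (hz2 : z * z = 1) (hqa : a * a = 1 ∨ a * a = z) (hqb : b * b = 1 ∨ b * b = z) :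
    ((a * a = z ∧ b * b = z) → Nonempty (A ≃* QuaternionGroup 2)) ∧
      (¬ (a * a = z ∧ b * b = z) → Nonempty (A ≃* DihedralGroup 4)) := by
  have hne : b * a ≠ a * b := fun e => hz (by rw [← hab]; exact commutatorElement_eq_one_iff_mul_comm.mpr e.symm)
  constructor
  · rintro ⟨ea, eb⟩
    have hoa : orderOf (⟨a, ha⟩ : A) = 2 * 2 := by
      rw [Subgroup.orderOf_mk]
      refine orderOf_eq_prime_pow (p := 2) (n := 1) ?_ ?_
      · rw [pow_one, pow_two, ea]; exact hz
      · rw [show (2 : ℕ) ^ (1 + 1) = 4 by norm_num, show a ^ 4 = a * a * (a * a) by simp [pow_succ, mul_assoc], ea, hz2]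
    have hnb : (⟨b, hb⟩ : A) ∉ Subgroup.zpowers (⟨a, ha⟩ : A) := by
      rintro ⟨n, hn⟩
      have hn' : a ^ n = b := congrArg Subtype.val hn
      exact hne (by rw [← hn']; exact (Commute.self_zpow a n).eq.symm)
    refine CfsgLib.RankOneP.nonempty_mulEquiv_quaternion (n := 2) (a := ⟨a, ha⟩) (y := ⟨b, hb⟩) hoa ?_ ?_ hnb ?_
    · refine Subtype.ext ?_
      show b * a * b⁻¹ = a⁻¹
      rw [show b * a * b⁻¹ = ⁅a, b⁆⁻¹ * a by simp only [commutatorElement_def]; group, hab, inv_eq_of_mul_eq_one_right hz2,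
        eq_inv_iff_mul_eq_one, mul_assoc, ea, hz2]
    · refine Subtype.ext ?_
      show b ^ 2 = a ^ 2
      rw [pow_two, pow_two, ea, eb]
    · refine Subgroup.eq_top_of_card_eq _ ?_
      have hd8 := Subgroup.card_subgroup_dvd_card (Subgroup.zpowers (⟨a, ha⟩ : A) ⊔ Subgroup.zpowers (⟨b, hb⟩ : A))
      have hgt : 4 < Nat.card ↥(Subgroup.zpowers (⟨a, ha⟩ : A) ⊔ Subgroup.zpowers (⟨b, hb⟩ : A)) := by
        refine lt_of_not_ge fun hle => hnb ?_
        rw [Subgroup.eq_of_le_of_card_ge (le_sup_left : Subgroup.zpowers (⟨a, ha⟩ : A) ≤ _ ⊔ Subgroup.zpowers (⟨b, hb⟩ : A))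
          (by rw [Nat.card_zpowers, hoa]; exact hle)]
        exact Subgroup.mem_sup_right (Subgroup.mem_zpowers _)
      rw [hA] at hd8 ⊢
      have := Nat.le_of_dvd (by norm_num) hd8
      interval_cases hh : Nat.card ↥(Subgroup.zpowers (⟨a, ha⟩ : A) ⊔ Subgroup.zpowers (⟨b, hb⟩ : A)) <;> omega
  · intro hn
    rcases hqa with ea | ea
    · exact CfsgLib.Forms.exists_mulEquiv_dihedral_four hA (a := ⟨a, ha⟩) (s := ⟨b, hb⟩) (Subtype.ext ea)
        fun e => hne (congrArg Subtype.val e)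
    · rcases hqb with eb | eb
      · exact CfsgLib.Forms.exists_mulEquiv_dihedral_four hA (a := ⟨b, hb⟩) (s := ⟨a, ha⟩) (Subtype.ext eb)
          fun e => hne (congrArg Subtype.val e).symm
      · exact absurd ⟨ea, eb⟩ hn

variable {R F : Subgroup X} {s t y : X}

/-- A frame over a group of order two. -/
theorem Frame.extraspecial (h : Frame R F s t y) (hc : Nat.card F = 2) :
    (∃ a ∈ R, ∃ b ∈ R, ⁅a, b⁆ ≠ 1) ∧ Nat.card {x : X // x ∈ R ∧ x ^ 2 = 1} = 12 ∧
      (∀ x ∈ R, (∀ g ∈ R, x * g = g * x) ↔ x ∈ F) ∧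
      ∃ A B : Subgroup X, Nonempty (A ≃* QuaternionGroup 2) ∧ Nonempty (B ≃* DihedralGroup 4) ∧
        (∀ a ∈ A, ∀ b ∈ B, a * b = b * a) ∧ A ⊔ B = R ∧ A ⊓ B = F := by
  classical
  haveI : Fact (Nat.Prime 5) := ⟨Nat.prime_five⟩
  obtain ⟨⟨z, hzF⟩, hz1⟩ : ∃ z : F, z ≠ 1 := by
    haveI : Nontrivial F := Finite.one_lt_card_iff_nontrivial.mp (by omega)
    exact exists_ne 1
  have hz : z ≠ 1 := fun e => hz1 (Subtype.ext e)
  have hmem : ∀ w ∈ F, w = 1 ∨ w = z := by
    intro w hw
    by_contra hne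
    push Not at hne
    have := Nat.card_le_card_of_injective (fun i : Fin 3 => ![(1 : F), ⟨z, hzF⟩, ⟨w, hw⟩] i) (by
      intro i j e
      fin_cases i <;> fin_cases j <;> simp_all [Subtype.ext_iff, eq_comm])
    rw [Nat.card_fin, hc] at this
    omega
  have hz2 : z * z = 1 := (hmem _ (F.mul_mem hzF hzF)).resolve_right fun e => hz (mul_left_cancel (e.trans (mul_one z).symm))
  have hzi : z⁻¹ = z := inv_eq_of_mul_eq_one_right hz2
  have hcen : ∀ g : X, g * z = z * g := fun g => by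
    rcases hmem _ (h.normF.conj_mem z hzF g) with e | e
    · exact absurd (conj_eq_one_iff.mp e) hz
    · exact mul_inv_eq_iff_eq_mul.mp e
  have hFc : ∀ w ∈ F, ∀ g : X, g * w = w * g := by
    intro w hw g
    rcases hmem w hw with rfl | rfl
    · rw [mul_one, one_mul]
    · exact hcen g
  have hcl : ∀ a ∈ R, ∀ b ∈ R, ∀ c ∈ R, ⁅a * b, c⁆ = ⁅a, c⁆ * ⁅b, c⁆ := by
    intro a ha b hb c hc'
    calc ⁅a * b, c⁆ = (a * ⁅b, c⁆ * a⁻¹) * ⁅a, c⁆ := by simp only [commutatorElement_def]; group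
      _ = ⁅b, c⁆ * ⁅a, c⁆ := by rw [hFc _ (h.comm b hb c hc') a, mul_inv_cancel_right]
      _ = _ := (hFc _ (h.comm a ha c hc') _)
  have hsymm : ∀ a ∈ R, ∀ b ∈ R, ⁅b, a⁆ = ⁅a, b⁆ := by
    intro a ha b hb
    rw [← commutatorElement_inv a b]
    rcases hmem _ (h.comm a ha b hb) with e | e <;> rw [e]
    · rw [inv_one]
    · exact hzi
  have hsfix : ∀ w ∈ F, s * w * s⁻¹ = w := fun w hw => by rw [hFc w hw, mul_inv_cancel_right]
  have hnc : ∃ a ∈ R, ∃ b ∈ R, ⁅a, b⁆ ≠ 1 := by
    by_contra hcon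
    push Not at hcon
    have hall : ∀ x ∈ R, x ^ 2 = 1 := h.no_hom (fun x => x ^ 2)
      (fun a ha b hb => (show Commute a b from commutatorElement_eq_one_iff_mul_comm.mp (hcon a ha b hb)).mul_pow 2)
      (fun w hw => by
        show w ^ 2 = 1
        rcases hmem w hw with rfl | rfl
        · exact one_pow 2
        · rw [pow_two, hz2])
      (fun a ha => by
        show (s * a * s⁻¹) ^ 2 = a ^ 2
        rw [conj_pow, hsfix _ (h.sq a ha)])
    have := h.gen ⊥ inferInstance (fun x hx => Subgroup.mem_bot.mpr (hall x hx))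
    rw [le_bot_iff] at this
    rw [this, Subgroup.card_bot] at hc
    omega
  refine ⟨hnc, ?_⟩
  let Z : Subgroup X := R ⊓ Subgroup.centralizer (R : Set X)
  have hZ : Z = F := by
    refine (h.dichotomy Z (fun w hw => ⟨h.le hw, fun g _ => hFc w hw g⟩) inf_le_left ?_).resolve_right ?_
    · rintro x ⟨hxR, hxc⟩
      refine ⟨h.normR.conj_mem x hxR s, fun g hg => ?_⟩
      have hxg := hxc _ (h.normR.conj_mem g hg s⁻¹)
      simp only [inv_inv] at hxg
      calc g * (s * x * s⁻¹) = s * (s⁻¹ * g * s * x) * s⁻¹ := by group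
        _ = s * (x * (s⁻¹ * g * s)) * s⁻¹ := by rw [hxg]
        _ = _ := by group
    · intro e
      obtain ⟨a, ha, b, hb, hab⟩ := hnc
      refine hab (commutatorElement_eq_one_iff_mul_comm.mpr ?_)
      exact ((e.symm ▸ hb : b ∈ Z).2 a ha)
  have hzc : ∀ x ∈ R, x ∉ F → ∃ g ∈ R, ⁅x, g⁆ = z := by
    intro x hx hxF
    by_contra hcon
    push Not at hcon
    refine hxF (hZ ▸ ⟨hx, fun g hg => ?_⟩)
    exact (commutatorElement_eq_one_iff_mul_comm.mp ((hmem _ (h.comm x hx g hg)).resolve_right (hcon g hg))).symm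
  obtain ⟨a, ha, b, hb, hab'⟩ := hnc
  have hab : ⁅a, b⁆ = z := (hmem _ (h.comm a ha b hb)).resolve_left hab'
  let T : Subgroup X := R ⊓ Subgroup.centralizer ({a, b} : Set X)
  have hmT : ∀ x, x ∈ T ↔ x ∈ R ∧ a * x = x * a ∧ b * x = x * b := fun x => by
    simp [T, Subgroup.mem_centralizer_iff]
  have hadj : ∀ g ∈ R, ∃ i j : Bool, g * ((cond i a 1) * (cond j b 1)) ∈ T := by
    intro g hg
    have hone : ∀ c ∈ R, ⁅(1 : X), c⁆ = 1 := fun c _ => commutatorElement_one_left c
    refine ⟨decide (⁅g, b⁆ = z), decide (⁅g, a⁆ = z), ?_⟩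
    set u := cond (decide (⁅g, b⁆ = z)) a 1 with hu
    set v := cond (decide (⁅g, a⁆ = z)) b 1 with hv
    have huR : u ∈ R := by rw [hu]; cases decide (⁅g, b⁆ = z) <;> simp [ha, R.one_mem]
    have hvR : v ∈ R := by rw [hv]; cases decide (⁅g, a⁆ = z) <;> simp [hb, R.one_mem]
    refine (hmT _).mpr ⟨R.mul_mem hg (R.mul_mem huR hvR), ?_, ?_⟩ <;>
      refine (commutatorElement_eq_one_iff_mul_comm.mp ?_).symm
    · rw [hcl g hg _ (R.mul_mem huR hvR) a ha, hcl u huR v hvR a ha]
      have hu0 : ⁅u, a⁆ = 1 := by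
        rw [hu]; cases decide (⁅g, b⁆ = z)
        · exact commutatorElement_one_left a
        · exact commutatorElement_self a
      rw [hu0, one_mul, hv]
      rcases hmem _ (h.comm g hg a ha) with e | e <;> rw [e]
      · simp [Ne.symm hz]
      · simp [hsymm a ha b hb, hab, hz2]
    · rw [hcl g hg _ (R.mul_mem huR hvR) b hb, hcl u huR v hvR b hb]
      have hv0 : ⁅v, b⁆ = 1 := by
        rw [hv]; cases decide (⁅g, a⁆ = z)
        · exact commutatorElement_one_left b
        · exact commutatorElement_self b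
      rw [hv0, mul_one, hu]
      rcases hmem _ (h.comm g hg b hb) with e | e <;> rw [e]
      · simp [Ne.symm hz]
      · simp [hab, hz2]
  obtain ⟨c, hcT, hcF⟩ : ∃ c, c ∈ T ∧ c ∉ F := by
    by_contra hcon
    push Not at hcon
    choose i j hij using hadj
    have := Nat.card_le_card_of_injective
      (fun g : R => ((i g g.2, j g g.2, (⟨_, hcon _ (hij g g.2)⟩ : F)) : Bool × Bool × F))
      (fun g g' e => by
        simp only [Prod.mk.injEq, Subtype.mk.injEq] at e
        obtain ⟨e1, e2, e3⟩ := e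
        rw [e1, e2] at e3
        exact Subtype.ext (mul_right_cancel e3))
    rw [Nat.card_prod, Nat.card_prod, Nat.card_eq_fintype_card (α := Bool), Fintype.card_bool, h.card, hc] at this
    omega
  obtain ⟨hcR, hac, hbc⟩ := (hmT c).mp hcT
  obtain ⟨g, hg, hcg⟩ := hzc c hcR hcF
  obtain ⟨i0, j0, hd⟩ := hadj g hg
  set d := g * ((cond i0 a 1) * (cond j0 b 1))
  obtain ⟨hdR, had, hbd⟩ := (hmT d).mp hd
  have h0 : ∀ {u v : X}, u * v = v * u → ⁅u, v⁆ = 1 := fun e => commutatorElement_eq_one_iff_mul_comm.mpr e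
  have hcd : ⁅c, d⁆ = z := by
    have hu : (cond i0 a 1) * (cond j0 b 1) ∈ R := by
      cases i0 <;> cases j0 <;> simp [ha, hb, R.one_mem, R.mul_mem ha hb]
    rw [← hsymm c hcR d hdR, hcl g hg _ hu c hcR, hsymm c hcR g hg, hcg]
    have : ⁅(cond i0 a 1) * (cond j0 b 1), c⁆ = 1 := by
      refine h0 ?_
      have c1 : Commute (cond i0 a 1) c := by cases i0; exacts [Commute.one_left c, hac]
      have c2 : Commute (cond j0 b 1) c := by cases j0; exacts [Commute.one_left c, hbc]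
      exact (c1.mul_left c2).eq
    rw [this, mul_one]
  -- coordinates
  let pa : Bool → Bool → X := fun i j => cond i a 1 * cond j b 1
  let pc : Bool → Bool → X := fun k l => cond k c 1 * cond l d 1
  let e : Bool → X := fun m => cond m z 1
  let P : Bool × Bool × Bool × Bool × Bool → R := fun w => ⟨pa w.1 w.2.1 * pc w.2.2.1 w.2.2.2.1 * e w.2.2.2.2, by
    obtain ⟨i, j, k, l, m⟩ := w
    refine R.mul_mem (R.mul_mem (R.mul_mem ?_ ?_) (R.mul_mem ?_ ?_)) ?_
    · cases i; exacts [R.one_mem, ha]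
    · cases j; exacts [R.one_mem, hb]
    · cases k; exacts [R.one_mem, hcR]
    · cases l; exacts [R.one_mem, hdR]
    · cases m; exacts [R.one_mem, h.le hzF]⟩
  have hpR : ∀ u v : X, u ∈ R → v ∈ R → ∀ i j, (cond i u 1 * cond j v 1 : X) ∈ R := fun u v hu hv i j => by
    cases i <;> cases j <;> simp [hu, hv, R.one_mem, R.mul_mem hu hv]
  have heR : ∀ m, e m ∈ R := fun m => by cases m; exacts [R.one_mem, h.le hzF]
  have hcomw : ∀ w : Bool × Bool × Bool × Bool × Bool, ⁅(P w : X), b⁆ = e w.1 ∧ ⁅(P w : X), a⁆ = e w.2.1 ∧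
      ⁅(P w : X), d⁆ = e w.2.2.1 ∧ ⁅(P w : X), c⁆ = e w.2.2.2.1 := by
    rintro ⟨i, j, k, l, m⟩
    have key : ∀ g ∈ R, ⁅(P (i, j, k, l, m) : X), g⁆ =
        cond i ⁅a, g⁆ 1 * cond j ⁅b, g⁆ 1 * (cond k ⁅c, g⁆ 1 * cond l ⁅d, g⁆ 1) := by
      intro g hg
      show ⁅pa i j * pc k l * e m, g⁆ = _
      rw [hcl _ (R.mul_mem (hpR a b ha hb i j) (hpR c d hcR hdR k l)) _ (heR m) g hg,
        hcl _ (hpR a b ha hb i j) _ (hpR c d hcR hdR k l) g hg]
      have he : ⁅e m, g⁆ = 1 := by cases m; exacts [commutatorElement_one_left g, h0 (hcen g).symm]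
      rw [he, mul_one]
      congr 1
      · show ⁅cond i a 1 * cond j b 1, g⁆ = _
        rw [hcl _ (by cases i; exacts [R.one_mem, ha]) _ (by cases j; exacts [R.one_mem, hb]) g hg]
        cases i <;> cases j <;> simp
      · show ⁅cond k c 1 * cond l d 1, g⁆ = _
        rw [hcl _ (by cases k; exacts [R.one_mem, hcR]) _ (by cases l; exacts [R.one_mem, hdR]) g hg]
        cases k <;> cases l <;> simp
    refine ⟨?_, ?_, ?_, ?_⟩
    · rw [key b hb, commutatorElement_self, hab, h0 hbc.symm, h0 hbd.symm]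
      cases i <;> cases j <;> cases k <;> cases l <;> simp [e]
    · rw [key a ha, commutatorElement_self, hsymm a ha b hb, hab, h0 hac.symm, h0 had.symm]
      cases i <;> cases j <;> cases k <;> cases l <;> simp [e]
    · rw [key d hdR, commutatorElement_self, hcd, h0 had, h0 hbd]
      cases i <;> cases j <;> cases k <;> cases l <;> simp [e]
    · rw [key c hcR, commutatorElement_self, hsymm c hcR d hdR, hcd, h0 hac, h0 hbc]
      cases i <;> cases j <;> cases k <;> cases l <;> simp [e]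
  have heinj : Function.Injective e := fun m m' => by cases m <;> cases m' <;> simp [e, hz, Ne.symm hz]
  have hPinj : Function.Injective P := by
    rintro ⟨i, j, k, l, m⟩ ⟨i', j', k', l', m'⟩ ew
    obtain ⟨x1, x2, x3, x4⟩ := hcomw (i, j, k, l, m)
    obtain ⟨y1, y2, y3, y4⟩ := hcomw (i', j', k', l', m')
    rw [ew] at x1 x2 x3 x4
    obtain rfl := heinj (x1.symm.trans y1)
    obtain rfl := heinj (x2.symm.trans y2)
    obtain rfl := heinj (x3.symm.trans y3)
    obtain rfl := heinj (x4.symm.trans y4)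
    obtain rfl := heinj (mul_left_cancel (congrArg Subtype.val ew))
    rfl
  have hPbij : Function.Bijective P := (Nat.bijective_iff_injective_and_card _).mpr ⟨hPinj, by
    rw [h.card, hc, Nat.card_eq_fintype_card]; rfl⟩
  have hq : ∀ x ∈ R, x * x = 1 ∨ x * x = z := fun x hx => hmem _ (by rw [← pow_two]; exact h.sq x hx)
  let q : X → Bool := fun x => decide (x * x = z)
  have hqe : ∀ x ∈ R, x * x = e (q x) := fun x hx => by
    rcases hq x hx with ex | ex <;> simp [q, e, ex, Ne.symm hz]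
  have hsqm : ∀ u ∈ R, ∀ v ∈ R, (u * v) * (u * v) = (u * u) * (v * v) * ⁅v, u⁆ := by
    intro u hu v hv
    have hf : ⁅v, u⁆ ∈ F := h.comm v hv u hu
    calc (u * v) * (u * v) = u * (⁅v, u⁆ * (u * v)) * v := by simp only [commutatorElement_def]; group
      _ = u * ((u * v) * ⁅v, u⁆) * v := by rw [hFc _ hf (u * v)]
      _ = u * u * (v * (⁅v, u⁆ * v)) := by group
      _ = u * u * (v * (v * ⁅v, u⁆)) := by rw [hFc _ hf v]
      _ = _ := by group
  have hpair : ∀ u ∈ R, ∀ v ∈ R, ⁅u, v⁆ = z → ∀ i j : Bool, (cond i u 1 * cond j v 1) * (cond i u 1 * cond j v 1) =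
      e ((i && q u) ^^ (j && q v) ^^ (i && j)) := by
    intro u hu v hv huv i j
    rw [hsqm _ (by cases i; exacts [R.one_mem, hu]) _ (by cases j; exacts [R.one_mem, hv])]
    cases i <;> cases j <;> simp [hqe u hu, hqe v hv, hsymm u hu v hv, huv] <;>
      cases q u <;> simp [e, hz2] <;> cases q v <;> simp [hz2]
  have hemul : ∀ m m' : Bool, e m * e m' = e (m ^^ m') := fun m m' => by cases m <;> cases m' <;> simp [e, hz2]
  have hPsq : ∀ w, (P w : X) ^ 2 = e (form (q a) (q b) (q c) (q d) w.1 w.2.1 w.2.2.1 w.2.2.2.1) := by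
    rintro ⟨i, j, k, l, m⟩
    show (pa i j * pc k l * e m) ^ 2 = _
    have c1 : Commute (pa i j * pc k l) (e m) := by cases m; exacts [Commute.one_right _, hcen _]
    have c2 : Commute (pa i j) (pc k l) := by
      have x1 : Commute a c := hac
      have x2 : Commute b c := hbc
      have x3 : Commute a d := had
      have x4 : Commute b d := hbd
      cases i <;> cases j <;> cases k <;> cases l <;> simp [pa, pc] <;>
        first | exact Commute.one_left _ | exact Commute.one_right _ | assumption |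
          exact x1.mul_left x2 | exact x3.mul_left x4 | exact x1.mul_right x3 | exact x2.mul_right x4 |
          exact (x1.mul_right x3).mul_left (x2.mul_right x4)
    rw [c1.mul_pow, c2.mul_pow, pow_two, pow_two, pow_two, hemul, Bool.xor_self]
    show pa i j * pa i j * (pc k l * pc k l) * (1 : X) = _
    rw [mul_one, hpair a ha b hb hab i j, hpair c hcR d hdR hcd k l, hemul]
    rfl
  have hcount : Nat.card {x : X // x ∈ R ∧ x ^ 2 = 1} = if (q a && q b) ^^ (q c && q d) then 12 else 20 := by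
    rw [← form_count, ← Nat.card_eq_fintype_card]
    refine (Nat.card_congr ?_).symm
    refine ((Equiv.ofBijective P hPbij).subtypeEquiv (q := fun r : R => (r : X) ^ 2 = 1) fun w => ?_).trans
      { toFun := fun r => ⟨((r : R) : X), (r : R).2, r.2⟩
        invFun := fun x => ⟨⟨x, x.2.1⟩, x.2.2⟩
        left_inv := fun r => rfl
        right_inv := fun x => rfl }
    show _ ↔ (P w : X) ^ 2 = 1
    rw [hPsq]
    constructor
    · intro e0; rw [e0]; rfl
    · intro e0; exact heinj (e0.trans rfl)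
  have hxor : ((q a && q b) ^^ (q c && q d)) = true := by
    by_contra hne
    rw [if_neg hne] at hcount
    let S : Equiv.Perm {x : X // x ∈ R ∧ x ^ 2 = 1} :=
      { toFun := fun x => ⟨s * x * s⁻¹, h.normR.conj_mem _ x.2.1 s, by rw [conj_pow, x.2.2, mul_one, mul_inv_cancel]⟩
        invFun := fun x => ⟨s⁻¹ * x * s, by simpa using h.normR.conj_mem _ x.2.1 s⁻¹, by
          have := conj_pow (i := 2) (a := s⁻¹) (b := (x : X))
          rw [inv_inv] at this
          rw [this, x.2.2, mul_one, inv_mul_cancel]⟩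
        left_inv := fun x => Subtype.ext (show s⁻¹ * (s * x * s⁻¹) * s = x by group)
        right_inv := fun x => Subtype.ext (show s * (s⁻¹ * x * s) * s⁻¹ = x by group) }
    have hpow : ∀ (n : ℕ) (x : {x : X // x ∈ R ∧ x ^ 2 = 1}), ((S ^ n) x : X) = s ^ n * x * (s ^ n)⁻¹ := by
      intro n
      induction n with
      | zero => intro x; simp
      | succ n ih =>
        intro x
        rw [pow_succ' S, Equiv.Perm.mul_apply]
        show s * ((S ^ n) x : X) * s⁻¹ = _
        rw [ih, pow_succ' s]; group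
    have h5 := card_mod (p := 5) S (Equiv.ext fun x => Subtype.ext (by rw [hpow, h.s5]; simp))
    have hfix : Nat.card {x // S x = x} = 2 := by
      refine Eq.trans (Nat.card_congr ?_) hc
      exact
        { toFun := fun x => ⟨((x : {x : X // x ∈ R ∧ x ^ 2 = 1}) : X), h.fpf _ x.1.2.1 (by
            rw [commutatorElement_def, show s * (x.1 : X) * s⁻¹ = x.1 from congrArg Subtype.val x.2, mul_inv_cancel]
            exact F.one_mem)⟩
          invFun := fun w => ⟨⟨w, h.le w.2, by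
            rcases hmem _ w.2 with e | e <;> rw [e]
            · exact one_pow 2
            · rw [pow_two, hz2]⟩, Subtype.ext (hsfix _ w.2)⟩
          left_inv := fun x => rfl
          right_inv := fun w => rfl }
    rw [hcount, hfix] at h5
    exact absurd h5 (by decide)
  refine ⟨by rw [hcount, if_pos hxor], fun x hx => ⟨fun hh => hZ ▸ ⟨hx, fun g hg => (hh g hg).symm⟩,
    fun hw g _ => (hFc x hw g).symm⟩, ?_⟩
  let U : Subgroup X := R ⊓ Subgroup.centralizer ({c, d} : Set X)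
  have hmU : ∀ x, x ∈ U ↔ x ∈ R ∧ c * x = x * c ∧ d * x = x * d := fun x => by
    simp [U, Subgroup.mem_centralizer_iff]
  have hw0 : ∀ w, (P w : X) ∈ T ↔ w.1 = false ∧ w.2.1 = false := by
    intro w
    obtain ⟨x1, x2, -, -⟩ := hcomw w
    rw [hmT]
    refine ⟨fun ⟨_, p, p'⟩ => ⟨heinj (x1.symm.trans (h0 p'.symm)), heinj (x2.symm.trans (h0 p.symm))⟩, fun ⟨p, p'⟩ => ?_⟩
    refine ⟨(P w).2, (commutatorElement_eq_one_iff_mul_comm.mp ?_).symm, (commutatorElement_eq_one_iff_mul_comm.mp ?_).symm⟩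
    · rw [x2, p']; rfl
    · rw [x1, p]; rfl
  have hw1 : ∀ w, (P w : X) ∈ U ↔ w.2.2.1 = false ∧ w.2.2.2.1 = false := by
    intro w
    obtain ⟨-, -, x3, x4⟩ := hcomw w
    rw [hmU]
    refine ⟨fun ⟨_, p, p'⟩ => ⟨heinj (x3.symm.trans (h0 p'.symm)), heinj (x4.symm.trans (h0 p.symm))⟩, fun ⟨p, p'⟩ => ?_⟩
    refine ⟨(P w).2, (commutatorElement_eq_one_iff_mul_comm.mp ?_).symm, (commutatorElement_eq_one_iff_mul_comm.mp ?_).symm⟩
    · rw [x4, p']; rfl
    · rw [x3, p]; rfl
  have hcard8 : ∀ (V : Subgroup X) (hV : V ≤ R) (f : Bool × Bool × Bool → Bool × Bool × Bool × Bool × Bool),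
      Function.Injective f → (∀ w, (P w : X) ∈ V ↔ w ∈ Set.range f) → Nat.card V = 8 := by
    intro V hV f hfi hf
    let G : Bool × Bool × Bool → V := fun v => ⟨P (f v), (hf _).mpr ⟨v, rfl⟩⟩
    have hG : Function.Bijective G := by
      refine ⟨fun v v' e => hfi (hPinj (Subtype.ext (congrArg (fun r : V => (r : X)) e))), fun x => ?_⟩
      obtain ⟨w, hw⟩ := hPbij.2 ⟨x, hV x.2⟩
      obtain ⟨v, rfl⟩ := (hf w).mp (by rw [hw]; exact x.2)
      exact ⟨v, Subtype.ext (congrArg (fun r : R => (r : X)) hw)⟩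
    rw [← Nat.card_congr (Equiv.ofBijective G hG), Nat.card_eq_fintype_card]; rfl
  have hT8 : Nat.card T = 8 := hcard8 T inf_le_left (fun v => (false, false, v.1, v.2.1, v.2.2))
    (fun v v' e => by simpa [Prod.ext_iff] using e)
    (fun w => by
      rw [hw0]
      obtain ⟨i, j, k, l, m⟩ := w
      simp [eq_comm])
  have hU8 : Nat.card U = 8 := hcard8 U inf_le_left (fun v => (v.1, v.2.1, false, false, v.2.2))
    (fun v v' e => by simpa [Prod.ext_iff] using e)
    (fun w => by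
      rw [hw1]
      obtain ⟨i, j, k, l, m⟩ := w
      simp [eq_comm])
  have hUT : ∀ u ∈ U, ∀ v ∈ T, u * v = v * u := by
    intro u hu v hv
    obtain ⟨w, hw⟩ := hPbij.2 ⟨u, hu.1⟩
    have hwu : (P w : X) = u := congrArg Subtype.val hw
    obtain ⟨hk, hl⟩ := (hw1 w).mp (hwu.symm ▸ hu)
    obtain ⟨-, hva, hvb⟩ := (hmT v).mp hv
    obtain ⟨i, j, k, l, m⟩ := w
    simp only at hk hl
    subst hk hl
    rw [← hwu]
    show Commute (pa i j * pc false false * e m) v
    refine ((Commute.mul_left ?_ ?_).mul_left ?_).mul_left ?_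
    · cases i; exacts [Commute.one_left v, hva]
    · cases j; exacts [Commute.one_left v, hvb]
    · show Commute ((1 : X) * 1) v
      rw [one_mul]; exact Commute.one_left v
    · cases m; exacts [Commute.one_left v, (hcen v).symm]
  have hsup : U ⊔ T = R := le_antisymm (sup_le inf_le_left inf_le_left) fun x hx => by
    obtain ⟨⟨i, j, k, l, m⟩, hw⟩ := hPbij.2 ⟨x, hx⟩
    have hwx : pa i j * pc k l * e m = x := congrArg Subtype.val hw
    rw [← hwx, mul_assoc]
    refine (U ⊔ T).mul_mem (Subgroup.mem_sup_left ?_) (Subgroup.mem_sup_right ?_)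
    · have := (hw1 (i, j, false, false, false)).mpr ⟨rfl, rfl⟩
      simpa [P, pc, e] using this
    · have := (hw0 (false, false, k, l, m)).mpr ⟨rfl, rfl⟩
      simpa [P, pa] using this
  have hinf : U ⊓ T = F := le_antisymm (fun x hx => by
      obtain ⟨⟨i, j, k, l, m⟩, hw⟩ := hPbij.2 ⟨x, hx.1.1⟩
      have hwx : (P (i, j, k, l, m) : X) = x := congrArg Subtype.val hw
      obtain ⟨e3, e4⟩ := (hw1 _).mp (hwx.symm ▸ hx.1)
      obtain ⟨e1, e2⟩ := (hw0 _).mp (hwx.symm ▸ hx.2)
      simp only at e1 e2 e3 e4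
      subst e1 e2 e3 e4
      rw [← hwx]
      cases m
      · simp [P, pa, pc, e, F.one_mem]
      · simp [P, pa, pc, e, hzF])
    fun w hw => ⟨(hmU w).mpr ⟨h.le hw, hFc w hw c, hFc w hw d⟩, (hmT w).mpr ⟨h.le hw, hFc w hw a, hFc w hw b⟩⟩
  have haU : a ∈ U := (hmU a).mpr ⟨ha, hac.symm, had.symm⟩
  have hbU : b ∈ U := (hmU b).mpr ⟨hb, hbc.symm, hbd.symm⟩
  obtain ⟨hUQ, hUD⟩ := dihedral_or_quaternion hU8 haU hbU hab hz hz2 (hq a ha) (hq b hb)
  obtain ⟨hTQ, hTD⟩ := dihedral_or_quaternion hT8 hcT hd hcd hz hz2 (hq c hcR) (hq d hdR)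
  by_cases hab2 : a * a = z ∧ b * b = z
  · refine ⟨U, T, hUQ hab2, hTD ?_, hUT, hsup, hinf⟩
    rintro ⟨e1, e2⟩
    simp [q, hab2.1, hab2.2, e1, e2] at hxor
  · refine ⟨T, U, hTQ ?_, hUD hab2, fun x hx w hw => (hUT w hw x hx).symm, by rw [sup_comm, hsup], by rw [inf_comm, hinf]⟩
    have h1 : (q a && q b) = false := by
      simp only [q, ← Bool.decide_and, decide_eq_false_iff_not]; exact hab2
    rw [h1, Bool.false_xor] at hxor
    simp only [q, ← Bool.decide_and, decide_eq_true_eq] at hxor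
    exact hxor

end CfsgLib.RankFourTwo.Five
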