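import Cfsg.Agent.RankFourTwo.Five.Extra

/-! There is no frame over a group of order four with a normal subgroup of order two. -/

set_option autoImplicit false

namespace CfsgLib.RankFourTwo.Five

open scoped commutatorElement
open Finset

variable {X : Type*} [Group X] [Finite X] {R F : Subgroup X} {s t y : X}

theorem Frame.false_of_four (h : Frame R F s t y) (hc : Nat.card F = 4) (K : Subgroup X) [K.Normal]
    (hKF : K ≤ F) (hK : Nat.card K = 2) : False := by
  classical
  haveI : Fact (Nat.Prime 3) := ⟨Nat.prime_three⟩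
  letI : Fintype X := Fintype.ofFinite X
  obtain ⟨⟨k, hkK⟩, hk1'⟩ : ∃ k : K, k ≠ 1 := by
    haveI : Nontrivial K := Finite.one_lt_card_iff_nontrivial.mp (by omega)
    exact exists_ne 1
  have hk1 : k ≠ 1 := fun e => hk1' (Subtype.ext e)
  have hKmem : ∀ w ∈ K, w = 1 ∨ w = k := by
    intro w hw
    by_contra hne
    push Not at hne
    have := Nat.card_le_card_of_injective (fun i : Fin 3 => ![(1 : K), ⟨k, hkK⟩, ⟨w, hw⟩] i) (by
      intro i j e
      fin_cases i <;> fin_cases j <;> simp_all [Subtype.ext_iff, eq_comm])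
    rw [Nat.card_fin, hK] at this
    omega
  have hk2 : k * k = 1 := (hKmem _ (K.mul_mem hkK hkK)).resolve_right fun e => hk1 (mul_left_cancel (e.trans (mul_one k).symm))
  have hkc : ∀ g : X, g * k = k * g := fun g => by
    rcases hKmem _ ((inferInstance : K.Normal).conj_mem k hkK g) with e | e
    · exact absurd (conj_eq_one_iff.mp e) hk1
    · exact mul_inv_eq_iff_eq_mul.mp e
  have hKc : ∀ w ∈ K, ∀ g : X, g * w = w * g := by
    intro w hw g
    rcases hKmem w hw with rfl | rfl
    · rw [mul_one, one_mul]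
    · exact hkc g
  have hidx : ∀ w ∈ F, w ∉ K → ∀ v ∈ F, v ∈ K ∨ w⁻¹ * v ∈ K := by
    intro w hw hwK v hv
    by_contra hne
    push Not at hne
    obtain ⟨hvK, hwv⟩ := hne
    have := Nat.card_le_card_of_injective
      (fun i : Fin 5 => ![(1 : F), ⟨k, hKF hkK⟩, ⟨w, hw⟩, ⟨w * k, F.mul_mem hw (hKF hkK)⟩, ⟨v, hv⟩] i) (by
      have n1 : w ≠ 1 := fun e => hwK (e ▸ K.one_mem)
      have n2 : w ≠ k := fun e => hwK (e ▸ hkK)
      have n3 : w * k ≠ 1 := fun e => n2 ((eq_inv_of_mul_eq_one_left e).trans (inv_eq_of_mul_eq_one_right hk2))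
      have n5 : v ≠ 1 := fun e => hvK (e ▸ K.one_mem)
      have n6 : v ≠ k := fun e => hvK (e ▸ hkK)
      have n7 : v ≠ w := fun e => hwv (by rw [e, inv_mul_cancel]; exact K.one_mem)
      have n8 : v ≠ w * k := fun e => hwv (by rw [e, inv_mul_cancel_left]; exact hkK)
      intro i j e
      fin_cases i <;> fin_cases j <;> simp_all [Subtype.ext_iff, eq_comm])
    rw [Nat.card_fin, hc] at this
    omega
  have hcomK : ∀ g : X, ∀ w ∈ F, ⁅g, w⁆ ∈ K := by
    intro g w hw
    rw [commutatorElement_def]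
    by_cases hwK : w ∈ K
    · rw [hKc w hwK g, mul_inv_cancel_right, mul_inv_cancel]; exact K.one_mem
    · rcases hidx w hw hwK _ (h.normF.conj_mem w hw g) with e | e
      · exfalso
        have := (inferInstance : K.Normal).conj_mem _ e g⁻¹
        exact hwK (by rwa [show g⁻¹ * (g * w * g⁻¹) * g⁻¹⁻¹ = w by group] at this)
      · have := (inferInstance : K.Normal).conj_mem _ e w
        rwa [show w * (w⁻¹ * (g * w * g⁻¹)) * w⁻¹ = g * w * g⁻¹ * w⁻¹ by group] at this
  have hFab : ∀ v ∈ F, ∀ w ∈ F, v * w = w * v := by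
    intro v hv w hw
    by_cases hwK : w ∈ K
    · exact hKc w hwK v
    · rcases hidx w hw hwK v hv with e | e
      · exact (hKc v e w).symm
      · have := hKc _ e w
        rw [mul_inv_cancel_left] at this
        calc v * w = w * (w⁻¹ * v * w) := by group
          _ = w * v := by rw [← this]
  have hRF : ∀ x ∈ R, ∀ w ∈ F, x * w = w * x := by
    intro x hx w hw
    refine commutatorElement_eq_one_iff_mul_comm.mp (h.no_hom (fun a => ⁅a, w⁆) ?_ ?_ ?_ x hx)
    · intro a ha b hb
      show ⁅a * b, w⁆ = ⁅a, w⁆ * ⁅b, w⁆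
      calc ⁅a * b, w⁆ = (a * ⁅b, w⁆ * a⁻¹) * ⁅a, w⁆ := by simp only [commutatorElement_def]; group
        _ = ⁅b, w⁆ * ⁅a, w⁆ := by rw [hKc _ (hcomK b w hw) a, mul_inv_cancel_right]
        _ = _ := hKc _ (hcomK a w hw) _
    · intro a ha
      exact commutatorElement_eq_one_iff_mul_comm.mpr (hFab a ha w hw)
    · intro a ha
      show ⁅s * a * s⁻¹, w⁆ = ⁅a, w⁆
      have hw' : s⁻¹ * w * s ∈ F := by simpa using h.normF.conj_mem w hw s⁻¹
      have e1 : ⁅s * a * s⁻¹, w⁆ = s * ⁅a, s⁻¹ * w * s⁆ * s⁻¹ := by simp only [commutatorElement_def]; group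
      rw [e1, hKc _ (hcomK a _ hw') s, mul_inv_cancel_right]
      have hu : ⁅s⁻¹, w⁆ ∈ K := hcomK _ _ hw
      set u := ⁅s⁻¹, w⁆ with hudef
      rw [show s⁻¹ * w * s = u * w by rw [hudef, commutatorElement_def]; group]
      have hcu : Commute a u := hKc u hu a
      simp only [commutatorElement_def]
      calc a * (u * w) * a⁻¹ * (u * w)⁻¹ = (a * u) * w * a⁻¹ * w⁻¹ * u⁻¹ := by group
        _ = u * (a * w * a⁻¹ * w⁻¹) * u⁻¹ := by rw [hcu.eq]; group
        _ = _ := by rw [← hKc u hu, mul_inv_cancel_right]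
  have hFc : ∀ g : X, ∀ w ∈ F, g * w = w * g := by
    let N : Subgroup X := Subgroup.centralizer (F : Set X)
    haveI := h.normF
    have hs : s ∈ N := by
      refine Subgroup.mem_centralizer_iff.mpr fun w hw => ?_
      have hu := hcomK s w hw
      set u := ⁅s, w⁆ with hudef
      have e : s * w * s⁻¹ = u * w := by rw [hudef, commutatorElement_def]; group
      have key : ∀ n : ℕ, s ^ n * w * (s ^ n)⁻¹ = u ^ n * w := by
        intro n
        induction n with
        | zero => simp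
        | succ n ih =>
          rw [show s ^ (n + 1) * w * (s ^ (n + 1))⁻¹ = s * (s ^ n * w * (s ^ n)⁻¹) * s⁻¹ by rw [pow_succ' s]; group,
            ih, show s * (u ^ n * w) * s⁻¹ = (s * u ^ n * s⁻¹) * (s * w * s⁻¹) by group, e,
            hKc _ (K.pow_mem hu n) s, mul_inv_cancel_right, ← mul_assoc, ← pow_succ]
      have e5 := key 5
      rw [h.s5, one_mul, inv_one, mul_one] at e5
      have u1 : u = 1 := by
        rcases hKmem u hu with eu | eu
        · exact eu
        · exfalso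
          rw [eu, show k ^ 5 = k * k * (k * k) * k by simp [pow_succ, mul_assoc], hk2, one_mul, one_mul] at e5
          exact hk1 (mul_right_cancel (e5.symm.trans (one_mul w).symm))
      rw [u1, one_mul] at e
      exact (mul_inv_eq_iff_eq_mul.mp e).symm
    have htop := h.top N inferInstance (fun x hx => Subgroup.mem_centralizer_iff.mpr fun w hw => (hRF x hx w hw).symm) hs
    intro g w hw
    exact (Subgroup.mem_centralizer_iff.mp (htop ▸ Subgroup.mem_top g : g ∈ N) w hw).symm
  have hexp : ∀ w ∈ F, w * w = 1 := by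
    by_contra hcon
    push Not at hcon
    obtain ⟨z, hz, hz2⟩ := hcon
    have hzK : z ∉ K := fun e => hz2 (by rcases hKmem z e with rfl | rfl; exacts [one_mul 1, hk2])
    have honly : ∀ w ∈ F, w * w = 1 → w ∈ K := by
      intro w hw hw2
      rcases hidx z hz hzK w hw with e | e
      · exact e
      · exfalso
        apply hz2
        rcases hKmem _ e with e' | e'
        · rwa [← inv_mul_eq_one.mp e'] at hw2
        · have hwz : w = z * k := by rw [← e', mul_inv_cancel_left]
          rw [hwz, mul_assoc, ← mul_assoc k, ← hkc z, mul_assoc z k, hk2, mul_one] at hw2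
          exact hw2
    have hq := h.quotient K hKF
    have hcF : Nat.card (F.map (QuotientGroup.mk' K)) = 2 := by
      let f := (QuotientGroup.mk' K).comp F.subtype
      have h1 := f.ker.card_mul_index
      have hk' : f.ker = K.subgroupOf F := by
        rw [← MonoidHom.comap_ker, QuotientGroup.ker_mk']; rfl
      rw [Subgroup.index_ker, MonoidHom.range_comp, Subgroup.range_subtype, hk',
        Nat.card_congr (Subgroup.subgroupOfEquivOfLe hKF).toEquiv, hK, hc] at h1
      omega
    obtain ⟨⟨_, ⟨a, ha, rfl⟩, _, ⟨b, hb, rfl⟩, hab⟩, -⟩ := hq.extraspecial hcF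
    apply hab
    rw [← map_commutatorElement, QuotientGroup.mk'_apply, QuotientGroup.eq_one_iff]
    refine honly _ (h.comm a ha b hb) ?_
    calc ⁅a, b⁆ * ⁅a, b⁆ = (a * ⁅a, b⁆ * a⁻¹) * ⁅a, b⁆ := by
          rw [hFc a _ (h.comm a ha b hb), mul_inv_cancel_right]
      _ = ⁅a ^ 2, b⁆ := by rw [pow_two]; simp only [commutatorElement_def]; group
      _ = 1 := commutatorElement_eq_one_iff_mul_comm.mpr (hFc b _ (h.sq a ha)).symm
  have hcount : ∀ f ∈ F, f ≠ 1 →
      Nat.card {x : X // x ∈ R ∧ x ^ 2 ∈ Subgroup.zpowers f} = 24 := by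
    intro f hf hf1
    set N := Subgroup.zpowers f
    haveI : N.Normal := ⟨fun w hw g => by
      obtain ⟨n, rfl⟩ := Subgroup.mem_zpowers_iff.mp hw
      rw [hFc g _ (F.zpow_mem hf n), mul_inv_cancel_right]
      exact hw⟩
    have hN : N ≤ F := Subgroup.zpowers_le.mpr hf
    have hN2 : Nat.card N = 2 := by
      rw [Nat.card_zpowers]
      exact orderOf_eq_prime (by rw [pow_two]; exact hexp f hf) hf1
    have hq := h.quotient N hN
    have hcF : Nat.card (F.map (QuotientGroup.mk' N)) = 2 := by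
      let g := (QuotientGroup.mk' N).comp F.subtype
      have h1 := g.ker.card_mul_index
      have hk' : g.ker = N.subgroupOf F := by
        rw [← MonoidHom.comap_ker, QuotientGroup.ker_mk']; rfl
      rw [Subgroup.index_ker, MonoidHom.range_comp, Subgroup.range_subtype, hk',
        Nat.card_congr (Subgroup.subgroupOfEquivOfLe hN).toEquiv, hN2, hc] at h1
      omega
    obtain ⟨-, h12, -⟩ := hq.extraspecial hcF
    let A : Set (X ⧸ N) := {q | q ∈ R.map (QuotientGroup.mk' N) ∧ q ^ 2 = 1}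
    have e1 : {x : X // x ∈ R ∧ x ^ 2 ∈ N} ≃ (QuotientGroup.mk ⁻¹' A : Set X) :=
      Equiv.subtypeEquivRight fun x => by
        show _ ↔ QuotientGroup.mk' N x ∈ A
        show _ ↔ QuotientGroup.mk' N x ∈ R.map (QuotientGroup.mk' N) ∧ (QuotientGroup.mk' N x) ^ 2 = 1
        rw [← map_pow]
        refine and_congr ⟨fun hx => ⟨x, hx, rfl⟩, ?_⟩ (QuotientGroup.eq_one_iff _).symm
        rintro ⟨r, hr, e⟩
        have := R.mul_mem hr ((hN.trans h.le) (QuotientGroup.eq.mp e))
        rwa [mul_inv_cancel_left] at this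
    rw [Nat.card_congr (e1.trans (QuotientGroup.preimageMkEquivSubgroupProdSet N A)), Nat.card_prod, hN2]
    show 2 * Nat.card {q : X ⧸ N // q ∈ R.map (QuotientGroup.mk' N) ∧ q ^ 2 = 1} = 24
    rw [h12]
  -- the three involutions of `F`
  obtain ⟨z, hzF, hzK⟩ : ∃ z ∈ F, z ∉ K := by
    by_contra hcon
    push Not at hcon
    have := Subgroup.card_le_of_le (show F ≤ K from hcon)
    omega
  have hkF := hKF hkK
  have hz1 : z ≠ 1 := fun e => hzK (e ▸ K.one_mem)
  have hzk : z ≠ k := fun e => hzK (e ▸ hkK)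
  have hzk1 : z * k ≠ 1 := fun e => hzk ((eq_inv_of_mul_eq_one_left e).trans (inv_eq_of_mul_eq_one_right hk2))
  have hF4 : ∀ w, w ∈ F ↔ w = 1 ∨ w = k ∨ w = z ∨ w = z * k := by
    intro w
    constructor
    · intro hw
      rcases hidx z hzF hzK w hw with e | e
      · rcases hKmem w e with e' | e' <;> simp [e']
      · rcases hKmem _ e with e' | e'
        · simp [(inv_mul_eq_one.mp e').symm]
        · simp [show w = z * k by rw [← e', mul_inv_cancel_left]]
    · rintro (rfl | rfl | rfl | rfl)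
      exacts [F.one_mem, hkF, hzF, F.mul_mem hzF hkF]
  have hzp : ∀ f ∈ F, f ≠ 1 → ∀ w, w ∈ Subgroup.zpowers f ↔ w = 1 ∨ w = f := by
    intro f hf hf1 w
    constructor
    · intro hw
      obtain ⟨n, rfl⟩ := Subgroup.mem_zpowers_iff.mp hw
      rcases Int.even_or_odd' n with ⟨m, rfl | rfl⟩
      · left; rw [zpow_mul, zpow_two, hexp f hf, one_zpow]
      · right; rw [zpow_add_one, zpow_mul, zpow_two, hexp f hf, one_zpow, one_mul]
    · rintro (rfl | rfl)
      exacts [Subgroup.one_mem _, Subgroup.mem_zpowers _]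
  let U : Finset X := univ.filter fun x => x ∈ R ∧ x ∉ F
  have hmU : ∀ x, x ∈ U ↔ x ∈ R ∧ x ∉ F := fun x => by simp [U]
  have hcR : Nat.card R = 64 := by rw [h.card, hc]
  have hsplit : ∀ (p : X → Prop) [DecidablePred p], (∀ w ∈ F, p w) →
      Nat.card {x : X // x ∈ R ∧ p x} = 4 + (U.filter p).card := by
    intro p _ hp
    rw [Nat.card_eq_fintype_card, Fintype.card_subtype, ← hc, Nat.card_eq_fintype_card, Fintype.card_subtype]
    rw [← card_union_of_disjoint]
    · congr 1
      ext x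
      simp only [mem_filter, mem_univ, true_and, mem_union, hmU]
      constructor
      · rintro ⟨hx, hpx⟩
        by_cases hxF : x ∈ F
        · exact Or.inl hxF
        · exact Or.inr ⟨⟨hx, hxF⟩, hpx⟩
      · rintro (hx | ⟨⟨hx, -⟩, hpx⟩)
        · exact ⟨h.le hx, hp x hx⟩
        · exact ⟨hx, hpx⟩
    · rw [disjoint_left]
      intro x hx hx'
      simp only [mem_filter, mem_univ, true_and, hmU] at hx hx'
      exact hx'.1.2 hx
  have hU : U.card = 60 := by
    have := hsplit (fun _ => True) (fun _ _ => trivial)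
    rw [filter_true] at this
    rw [Nat.card_congr (Equiv.subtypeEquivRight (q := fun x => x ∈ R) fun x => and_iff_left trivial), hcR] at this
    omega
  have h20 : ∀ f ∈ F, f ≠ 1 → (U.filter fun x => x ^ 2 = 1 ∨ x ^ 2 = f).card = 20 := by
    intro f hf hf1
    have := hsplit (fun x => x ^ 2 = 1 ∨ x ^ 2 = f) (fun w hw => Or.inl (by rw [pow_two]; exact hexp w hw))
    rw [Nat.card_congr (Equiv.subtypeEquivRight (q := fun x => x ∈ R ∧ x ^ 2 ∈ Subgroup.zpowers f)
      fun x => and_congr Iff.rfl (hzp f hf hf1 _).symm), hcount f hf hf1] at this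
    omega
  have hpt : ∀ x ∈ U, x ^ 2 = 1 ∨ x ^ 2 = k ∨ x ^ 2 = z ∨ x ^ 2 = z * k := fun x hx =>
    (hF4 _).mp (h.sq x ((hmU x).mp hx).1)
  have hkz : k ≠ z * k := fun e => hz1 (mul_right_cancel ((one_mul k).trans e).symm)
  have hzzk : z ≠ z * k := fun e => hk1 (mul_left_cancel ((mul_one z).trans e)).symm
  have hnone : (U.filter fun x => x ^ 2 = 1).card = 0 := by
    have e : (U.filter fun x => x ^ 2 = 1 ∨ x ^ 2 = k).card + (U.filter fun x => x ^ 2 = 1 ∨ x ^ 2 = z).card +
        (U.filter fun x => x ^ 2 = 1 ∨ x ^ 2 = z * k).card = U.card + 2 * (U.filter fun x => x ^ 2 = 1).card := by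
      simp only [card_filter, card_eq_sum_ones U, mul_sum, ← sum_add_distrib]
      refine sum_congr rfl fun x hx => ?_
      rcases hpt x hx with e | e | e | e <;>
        simp [e, hk1, hz1, hzk1, hzk, hzk.symm, hkz, hkz.symm, hzzk, hzzk.symm, eq_comm (a := (1 : X))]
    rw [h20 k hkF hk1, h20 z hzF hz1, h20 _ (F.mul_mem hzF hkF) hzk1, hU] at e
    omega
  have hne1 : ∀ x ∈ U, x ^ 2 ≠ 1 := fun x hx e => by
    have : x ∈ U.filter fun x => x ^ 2 = 1 := mem_filter.mpr ⟨hx, e⟩
    rw [card_eq_zero.mp hnone] at this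
    exact notMem_empty x this
  have hfix : ∀ f ∈ F, f ≠ 1 → (U.filter fun x => x ^ 2 = f ∧ y * x * y⁻¹ = x).card % 3 = 2 ∧
      5 ≤ (U.filter fun x => x ^ 2 = f ∧ y * x * y⁻¹ = x).card := by
    intro f hf hf1
    have hU20 : (U.filter fun x => x ^ 2 = f).card = 20 := by
      rw [← h20 f hf hf1]
      refine congrArg Finset.card ?_
      exact filter_congr fun x hx => ⟨Or.inr, fun e => e.resolve_left (hne1 x hx)⟩
    have hconj : ∀ g : X, ∀ x, x ∈ U.filter (fun x => x ^ 2 = f) → g * x * g⁻¹ ∈ U.filter (fun x => x ^ 2 = f) := by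
      intro g x hx
      obtain ⟨hxU, hxf⟩ := mem_filter.mp hx
      obtain ⟨hxR, hxF⟩ := (hmU x).mp hxU
      refine mem_filter.mpr ⟨(hmU _).mpr ⟨h.normR.conj_mem x hxR g, fun e => hxF ?_⟩, ?_⟩
      · have := h.normF.conj_mem _ e g⁻¹
        rwa [show g⁻¹ * (g * x * g⁻¹) * g⁻¹⁻¹ = x by group] at this
      · rw [conj_pow, hxf, hFc g f hf, mul_inv_cancel_right]
    let S : Equiv.Perm {x // x ∈ U.filter fun x => x ^ 2 = f} :=
      { toFun := fun x => ⟨y * x * y⁻¹, hconj y x x.2⟩
        invFun := fun x => ⟨y⁻¹ * x * y, by simpa using hconj y⁻¹ x x.2⟩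
        left_inv := fun x => Subtype.ext (show y⁻¹ * (y * x * y⁻¹) * y = x by group)
        right_inv := fun x => Subtype.ext (show y * (y⁻¹ * x * y) * y⁻¹ = x by group) }
    have h3 := card_mod (p := 3) S (Equiv.ext fun x => Subtype.ext (by
      show y * (y * (y * (x : X) * y⁻¹) * y⁻¹) * y⁻¹ = x
      calc _ = y ^ 3 * x * (y ^ 3)⁻¹ := by simp only [pow_succ, pow_zero, one_mul, mul_inv_rev, mul_assoc]
        _ = x := by rw [h.y3]; simp))
    have hfc : Nat.card {x // S x = x} = (U.filter fun x => x ^ 2 = f ∧ y * x * y⁻¹ = x).card := by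
      rw [← Fintype.card_coe, ← Nat.card_eq_fintype_card]
      exact Nat.card_congr
        { toFun := fun x => ⟨(x.1 : X), mem_filter.mpr ⟨(mem_filter.mp x.1.2).1, (mem_filter.mp x.1.2).2,
            congrArg Subtype.val x.2⟩⟩
          invFun := fun x => ⟨⟨x, mem_filter.mpr ⟨(mem_filter.mp x.2).1, (mem_filter.mp x.2).2.1⟩⟩,
            Subtype.ext (mem_filter.mp x.2).2.2⟩
          left_inv := fun x => rfl
          right_inv := fun x => rfl }
    rw [hfc, Nat.card_eq_fintype_card, Fintype.card_coe, hU20] at h3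
    unfold Nat.ModEq at h3
    set W := U.filter fun x => x ^ 2 = f ∧ y * x * y⁻¹ = x with hW
    obtain ⟨c, hcW⟩ : W.Nonempty := card_pos.mp (by omega)
    obtain ⟨hcU, hcf, hcy⟩ := mem_filter.mp hcW
    obtain ⟨hcR', hcF'⟩ := (hmU c).mp hcU
    have h4 : Nat.card F ≤ W.card := by
      rw [← Fintype.card_coe, ← Nat.card_eq_fintype_card]
      refine Nat.card_le_card_of_injective (fun w : F => (⟨c * w, mem_filter.mpr ⟨(hmU _).mpr
        ⟨R.mul_mem hcR' (h.le w.2), fun e => hcF' ((F.mul_mem_cancel_right w.2).mp e)⟩, ?_, ?_⟩⟩ : {x // x ∈ W}))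
        (fun v w e => Subtype.ext (mul_left_cancel (congrArg Subtype.val e)))
      · rw [(show Commute c (w : X) from hFc c w w.2).mul_pow, hcf, pow_two (w : X), hexp _ w.2, mul_one]
      · rw [show y * (c * (w : X)) * y⁻¹ = (y * c * y⁻¹) * (y * w * y⁻¹) by group, hcy, hFc y w w.2,
          mul_inv_cancel_right]
    omega
  let C : Subgroup X := R ⊓ Subgroup.centralizer {y}
  have hmC : ∀ x, x ∈ C ↔ x ∈ R ∧ y * x * y⁻¹ = x := fun x => by
    simp only [C, Subgroup.mem_inf, Subgroup.mem_centralizer_singleton_iff]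
    refine and_congr Iff.rfl ⟨fun e => mul_inv_eq_iff_eq_mul.mpr e.symm, fun e => (mul_inv_eq_iff_eq_mul.mp e).symm⟩
  have hCc : Nat.card C = 4 + ((U.filter fun x => x ^ 2 = k ∧ y * x * y⁻¹ = x).card +
      (U.filter fun x => x ^ 2 = z ∧ y * x * y⁻¹ = x).card +
      (U.filter fun x => x ^ 2 = z * k ∧ y * x * y⁻¹ = x).card) := by
    have := hsplit (fun x => y * x * y⁻¹ = x) (fun w hw => by rw [hFc y w hw, mul_inv_cancel_right])
    rw [Nat.card_congr (Equiv.subtypeEquivRight (q := fun x => x ∈ C) fun x => (hmC x).symm)] at this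
    rw [this]
    congr 1
    simp only [card_filter, ← sum_add_distrib]
    refine sum_congr rfl fun x hx => ?_
    rcases hpt x hx with e | e | e | e
    · exact absurd e (hne1 x hx)
    all_goals simp [e, hzk, hzk.symm, hkz, hkz.symm, hzzk, hzzk.symm]
  obtain ⟨a1, b1⟩ := hfix k hkF hk1
  obtain ⟨a2, b2⟩ := hfix z hzF hz1
  obtain ⟨a3, b3⟩ := hfix _ (F.mul_mem hzF hkF) hzk1
  have hd : Nat.card C ∣ 64 := hcR ▸ Subgroup.card_dvd_of_le inf_le_left
  obtain ⟨m, hm, hm'⟩ := (Nat.dvd_prime_pow Nat.prime_two).mp (show Nat.card C ∣ 2 ^ 6 from hd)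
  have hCR : C = R := Subgroup.eq_of_le_of_card_ge inf_le_left (by
    rw [hcR, hm']
    interval_cases m <;> omega)
  obtain ⟨x, hx, hx'⟩ := h.ymove
  refine hx' ?_
  rw [commutatorElement_def, ((hmC x).mp (hCR.symm ▸ hx)).2, mul_inv_cancel]
  exact F.one_mem

end CfsgLib.RankFourTwo.Five
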