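import Cfsg.Agent.RankFourTwo.Five.Basic
import Cfsg.Agent.Forms.DihedralEight
import Cfsg.Agent.RankOneP.Basic

/-! Frames: a normal 2-subgroup with a four-dimensional top on which a five-element is free. -/

set_option autoImplicit false

namespace CfsgLib.RankFourTwo.Five

open scoped commutatorElement

variable {X : Type*} [Group X] [Finite X]

/-- The situation studied. -/
structure Frame (R F : Subgroup X) (s t y : X) : Prop where
  normR : R.Normal
  normF : F.Normal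
  le : F ≤ R
  card : Nat.card R = 16 * Nat.card F
  sq : ∀ x ∈ R, x ^ 2 ∈ F
  comm : ∀ x ∈ R, ∀ z ∈ R, ⁅x, z⁆ ∈ F
  fpf : ∀ x ∈ R, ⁅s, x⁆ ∈ F → x ∈ F
  s5 : s ^ 5 = 1
  y3 : y ^ 3 = 1
  t2 : t ^ 2 ∈ R
  tR : t ∉ R
  inv : s * t * s * t⁻¹ ∈ R
  ymove : ∃ x ∈ R, ⁅y, x⁆ ∉ F
  gen : ∀ N : Subgroup X, N.Normal → (∀ x ∈ R, x ^ 2 ∈ N) → F ≤ N
  top : ∀ N : Subgroup X, N.Normal → R ≤ N → s ∈ N → N = ⊤

variable {R F : Subgroup X} {s t y : X}

/-- Frames pass to quotients. -/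
theorem Frame.quotient (h : Frame R F s t y) (N : Subgroup X) [N.Normal] (hN : N ≤ F) :
    Frame (R.map (QuotientGroup.mk' N)) (F.map (QuotientGroup.mk' N)) (QuotientGroup.mk' N s)
      (QuotientGroup.mk' N t) (QuotientGroup.mk' N y) := by
  have hsurj := QuotientGroup.mk'_surjective N
  have hback : ∀ (M : Subgroup X), N ≤ M → ∀ x, QuotientGroup.mk' N x ∈ M.map (QuotientGroup.mk' N) → x ∈ M := by
    intro M hM x hx
    obtain ⟨m, hm, e⟩ := hx
    have : m⁻¹ * x ∈ N := QuotientGroup.eq.mp e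
    have := M.mul_mem hm (hM this)
    rwa [mul_inv_cancel_left] at this
  have hcard : ∀ M : Subgroup X, N ≤ M → Nat.card M = Nat.card (M.map (QuotientGroup.mk' N)) * Nat.card N := by
    intro M hM
    let f := (QuotientGroup.mk' N).comp M.subtype
    have h1 := f.ker.card_mul_index
    have hk : f.ker = N.subgroupOf M := by
      rw [← MonoidHom.comap_ker, QuotientGroup.ker_mk']; rfl
    rw [Subgroup.index_ker, MonoidHom.range_comp, Subgroup.range_subtype, hk,
      Nat.card_congr (Subgroup.subgroupOfEquivOfLe hM).toEquiv, mul_comm] at h1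
    exact h1.symm
  refine
    { normR := h.normR.map _ hsurj
      normF := h.normF.map _ hsurj
      le := Subgroup.map_mono h.le
      card := ?_, sq := ?_, comm := ?_, fpf := ?_, s5 := ?_, y3 := ?_, t2 := ?_, tR := ?_, inv := ?_,
      ymove := ?_, gen := ?_, top := ?_ }
  · have h1 := hcard R (hN.trans h.le)
    rw [h.card, hcard F hN, ← mul_assoc] at h1
    exact (Nat.eq_of_mul_eq_mul_right Nat.card_pos h1).symm
  · rintro _ ⟨x, hx, rfl⟩
    exact ⟨x ^ 2, h.sq x hx, map_pow _ _ _⟩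
  · rintro _ ⟨x, hx, rfl⟩ _ ⟨z, hz, rfl⟩
    exact ⟨⁅x, z⁆, h.comm x hx z hz, map_commutatorElement _ _ _⟩
  · rintro _ ⟨x, hx, rfl⟩ hx'
    rw [← map_commutatorElement] at hx'
    exact ⟨x, h.fpf x hx (hback F hN _ hx'), rfl⟩
  · rw [← map_pow, h.s5, map_one]
  · rw [← map_pow, h.y3, map_one]
  · exact ⟨t ^ 2, h.t2, map_pow _ _ _⟩
  · exact fun ht => h.tR (hback R (hN.trans h.le) t ht)
  · exact ⟨_, h.inv, by simp only [map_mul, map_inv]⟩
  · obtain ⟨x, hx, hx'⟩ := h.ymove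
    refine ⟨_, ⟨x, hx, rfl⟩, fun hm => hx' ?_⟩
    rw [← map_commutatorElement] at hm
    exact hback F hN _ hm
  · intro M hM hsq
    refine Subgroup.map_le_iff_le_comap.mpr (h.gen _ (hM.comap _) fun x hx => ?_)
    rw [Subgroup.mem_comap, map_pow]
    exact hsq _ ⟨x, hx, rfl⟩
  · intro M hM hR hs
    have := h.top (M.comap (QuotientGroup.mk' N)) (hM.comap _) (Subgroup.map_le_iff_le_comap.mp hR) hs
    rw [eq_top_iff]
    intro q _
    obtain ⟨x, rfl⟩ := hsurj q
    exact (this ▸ Subgroup.mem_top x : x ∈ M.comap (QuotientGroup.mk' N))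

/-- An `s`-invariant homomorphism trivial on `F` is trivial. -/
theorem Frame.no_hom (h : Frame R F s t y) {G : Type*} [Group G] (φ : X → G)
    (hmul : ∀ a ∈ R, ∀ b ∈ R, φ (a * b) = φ a * φ b) (hF : ∀ a ∈ F, φ a = 1)
    (hs : ∀ a ∈ R, φ (s * a * s⁻¹) = φ a) : ∀ x ∈ R, φ x = 1 := by
  haveI := h.normR
  haveI := h.normF
  obtain ⟨ρ, hρ⟩ := exists_layerHom R F
  let δ : R ⧸ F.subgroupOf R → R ⧸ F.subgroupOf R := fun v => ρ s v * v⁻¹
  have hinj : Function.Injective δ := by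
    intro v w e
    have e' : ρ s v * v⁻¹ = ρ s w * w⁻¹ := e
    have e2 : ρ s (w⁻¹ * v) = w⁻¹ * v := by
      rw [map_mul, map_inv]
      have e3 : ρ s v = ρ s w * w⁻¹ * v := by rw [← e', inv_mul_cancel_right]
      rw [e3]; group
    obtain ⟨m, hm⟩ := QuotientGroup.mk_surjective (w⁻¹ * v)
    rw [← hm, hρ, QuotientGroup.eq_iff_div_mem, div_eq_mul_inv, Subgroup.mem_subgroupOf] at e2
    have := (QuotientGroup.eq_one_iff m).mpr (Subgroup.mem_subgroupOf.mpr (h.fpf m m.2 e2))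
    rw [hm] at this
    exact (inv_mul_eq_one.mp this).symm
  intro x hx
  obtain ⟨v, hv⟩ := Finite.surjective_of_injective hinj (QuotientGroup.mk (⟨x, hx⟩ : R))
  obtain ⟨u, rfl⟩ := QuotientGroup.mk_surjective v
  have hv' : ρ s (QuotientGroup.mk u) * (QuotientGroup.mk u)⁻¹ = QuotientGroup.mk (⟨x, hx⟩ : R) := hv
  rw [hρ, ← QuotientGroup.mk_inv, ← QuotientGroup.mk_mul] at hv'
  have hf := Subgroup.mem_subgroupOf.mp (QuotientGroup.eq.mp hv')
  simp only [Subgroup.coe_mul, Subgroup.coe_inv] at hf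
  have hsu : s * (u : X) * s⁻¹ ∈ R := h.normR.conj_mem u u.2 s
  have h1 : φ 1 = 1 := hF 1 F.one_mem
  have hui : φ (u : X)⁻¹ = (φ u)⁻¹ := eq_inv_of_mul_eq_one_right (by
    rw [← hmul u u.2 _ (R.inv_mem u.2), mul_inv_cancel, h1])
  calc φ x = φ (s * u * s⁻¹ * (u : X)⁻¹ * ((s * u * s⁻¹ * (u : X)⁻¹)⁻¹ * x)) := by rw [mul_inv_cancel_left]
    _ = φ (s * u * s⁻¹) * φ (u : X)⁻¹ * φ ((s * u * s⁻¹ * (u : X)⁻¹)⁻¹ * x) := by
      rw [hmul _ (R.mul_mem hsu (R.inv_mem u.2)) _ (h.le hf), hmul _ hsu _ (R.inv_mem u.2)]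
    _ = 1 := by rw [hs u u.2, hui, hF _ hf, mul_inv_cancel, one_mul]

/-- Invariant subgroups between `F` and `R`. -/
theorem Frame.dichotomy (h : Frame R F s t y) (M : Subgroup X) (hFM : F ≤ M) (hMR : M ≤ R)
    (hM : ∀ x ∈ M, s * x * s⁻¹ ∈ M) : M = F ∨ M = R := by
  classical
  haveI := h.normR
  haveI := h.normF
  haveI : Fact (Nat.Prime 5) := ⟨Nat.prime_five⟩
  obtain ⟨ρ, hρ⟩ := exists_layerHom R F
  have hV : Nat.card (R ⧸ F.subgroupOf R) = 16 := by
    have h1 := card_subgroupOf h.le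
    rw [h.card, mul_comm] at h1
    exact (Nat.eq_of_mul_eq_mul_left Nat.card_pos h1).symm
  let Mb : Subgroup (R ⧸ F.subgroupOf R) := (M.subgroupOf R).map (QuotientGroup.mk' _)
  have hmv : ∀ v, v ∈ Mb → ρ s v ∈ Mb := by
    rintro _ ⟨m, hm, rfl⟩
    rw [QuotientGroup.mk'_apply, hρ]
    exact ⟨_, Subgroup.mem_subgroupOf.mpr (hM _ (Subgroup.mem_subgroupOf.mp hm)), rfl⟩
  let S : Equiv.Perm Mb := Equiv.ofBijective (fun v => ⟨ρ s v, hmv v v.2⟩)
    (Finite.injective_iff_bijective.mp fun a b e => Subtype.ext ((ρ s).injective (congrArg Subtype.val e)))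
  have hpow : ∀ (n : ℕ) (v : Mb), ((S ^ n) v : R ⧸ F.subgroupOf R) = ρ (s ^ n) v := by
    intro n
    induction n with
    | zero => intro v; simp
    | succ n ih => intro v; rw [pow_succ', Equiv.Perm.mul_apply, pow_succ', map_mul, MulAut.mul_apply, ← ih]; rfl
  have h5 : S ^ 5 = 1 := Equiv.ext fun v => Subtype.ext (by rw [hpow, h.s5, map_one]; rfl)
  have hfix : Nat.card {v // S v = v} = 1 := by
    rw [Nat.card_eq_one_iff_unique]
    refine ⟨⟨fun a b => ?_⟩, ⟨⟨1, Subtype.ext (map_one (ρ s))⟩⟩⟩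
    have key : ∀ a : {v // S v = v}, ((a : Mb) : R ⧸ F.subgroupOf R) = 1 := by
      rintro ⟨⟨v, hv⟩, hvS⟩
      have e : ρ s v = v := congrArg Subtype.val hvS
      obtain ⟨m, rfl⟩ := QuotientGroup.mk_surjective v
      rw [hρ, QuotientGroup.eq_iff_div_mem, div_eq_mul_inv, Subgroup.mem_subgroupOf] at e
      exact (QuotientGroup.eq_one_iff m).mpr (Subgroup.mem_subgroupOf.mpr (h.fpf m m.2 e))
    exact Subtype.ext (Subtype.ext ((key a).trans (key b).symm))
  have hmod := card_mod S h5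
  rw [hfix] at hmod
  have hd : Nat.card Mb ∣ 16 := hV ▸ Subgroup.card_subgroup_dvd_card Mb
  have hcases : Nat.card Mb = 1 ∨ Nat.card Mb = 16 := by
    have h16 := Nat.le_of_dvd (by norm_num) hd
    unfold Nat.ModEq at hmod
    interval_cases hh : Nat.card Mb <;> omega
  rcases hcases with e | e
  · left
    refine le_antisymm (fun x hx => ?_) hFM
    have hm : QuotientGroup.mk' (F.subgroupOf R) ⟨x, hMR hx⟩ ∈ Mb := ⟨_, Subgroup.mem_subgroupOf.mpr hx, rfl⟩
    rw [Subgroup.card_eq_one.mp e, Subgroup.mem_bot] at hm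
    exact Subgroup.mem_subgroupOf.mp ((QuotientGroup.eq_one_iff _).mp hm)
  · right
    refine le_antisymm hMR fun x hx => ?_
    have hm : QuotientGroup.mk' (F.subgroupOf R) ⟨x, hx⟩ ∈ Mb := by
      rw [Subgroup.eq_top_of_card_eq Mb (e.trans hV.symm)]; exact Subgroup.mem_top _
    obtain ⟨m, hm', e'⟩ := hm
    have h1 := Subgroup.mem_subgroupOf.mp (QuotientGroup.eq.mp e')
    have := M.mul_mem (Subgroup.mem_subgroupOf.mp hm') (hFM h1)
    simpa using this

/-- A free second layer of order 16 gives a section of rank five. -/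
theorem Frame.false_of_layer (h : Frame R F s t y) (h4 : Cfsg.SectionalPRankLE 2 4 X) (hc : Nat.card F = 16)
    (hcen : ∀ x ∈ R, ∀ w ∈ F, ⁅x, w⁆ = 1) (hexp : ∀ w ∈ F, w ^ 2 = 1)
    (hfpfF : ∀ w ∈ F, ⁅s, w⁆ = 1 → w = 1) : False := by
  classical
  haveI := h.normR
  haveI := h.normF
  obtain ⟨C, -, hCR, hCc, hC, hnorm⟩ := layer_invol h.le h.card h.sq h.s5
    (t := t) (fun x hx => h.comm _ h.t2 x hx) (fun x hx => h.comm _ h.inv x hx) h.fpf
  -- a better lift of the involution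
  obtain ⟨r, hr, hnr⟩ := hnorm (t ^ 2) ((hC _).mpr ⟨h.t2, by
    rw [show ⁅t, t ^ 2⁆ = 1 by simp only [commutatorElement_def, pow_two]; group]; exact F.one_mem⟩)
  set t' := r * t with ht'
  have ht'2 : t' ^ 2 ∈ F := by
    have e : t' ^ 2 = r * (t * r * t⁻¹) * t ^ 2 := by rw [ht', pow_two, pow_two]; group
    rw [e]
    have hp : r * (t * r * t⁻¹) ∈ R := R.mul_mem hr (h.normR.conj_mem r hr t)
    have h1 : (t ^ 2) ^ 2 ∈ F := h.sq _ h.t2
    have h2 := h.normF.conj_mem _ (F.mul_mem h1 hnr) (t ^ 2)⁻¹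
    rw [pow_two (t ^ 2)] at h2
    have e2 : (t ^ 2)⁻¹ * (t ^ 2 * t ^ 2 * ((t ^ 2)⁻¹ * (r * (t * r * t⁻¹)))) * (t ^ 2)⁻¹⁻¹ =
        r * (t * r * t⁻¹) * t ^ 2 := by group
    rwa [e2] at h2
  have ht'R : t' ∉ R := fun ht => h.tR ((R.mul_mem_cancel_left hr).mp ht)
  have hinv' : s * t' * s * t'⁻¹ ∈ R := by
    have h2 := h.normR.conj_mem _ (R.mul_mem h.inv (R.inv_mem hr)) 1
    simp only [one_mul, inv_one, mul_one] at h2
    have h3 := R.mul_mem (h.normR.conj_mem r hr s) h2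
    rwa [show s * r * s⁻¹ * (s * t * s * t⁻¹ * r⁻¹) = s * t' * s * t'⁻¹ by rw [ht']; group] at h3
  obtain ⟨C', hFC', hC'R, hC'c, hC', -⟩ := layer_invol h.le h.card h.sq h.s5 (t := t')
    (fun x hx => h.comm _ (h.le ht'2) x hx) (fun x hx => h.comm _ hinv' x hx) h.fpf
  obtain ⟨D, -, hDF, hDc, hD, -⟩ := layer_invol (M := F) (N := ⊥) bot_le (by rw [hc, Subgroup.card_bot])
    (fun w hw => by rw [Subgroup.mem_bot]; exact hexp w hw) h.s5 (t := t')
    (fun w hw => by rw [Subgroup.mem_bot]; exact hcen _ (h.le ht'2) w hw)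
    (fun w hw => by rw [Subgroup.mem_bot]; exact hcen _ hinv' w hw)
    (fun w hw hw' => Subgroup.mem_bot.mpr (hfpfF w hw (Subgroup.mem_bot.mp hw')))
  rw [Subgroup.card_bot, mul_one] at hDc
  have hmemD : ∀ w, w ∈ F → t' * w * t'⁻¹ = w → w ∈ D := fun w hw e => (hD w).mpr ⟨hw, by
    rw [Subgroup.mem_bot, commutatorElement_def, e, mul_inv_cancel]⟩
  have hDfix : ∀ d ∈ D, t' * d * t'⁻¹ = d := fun d hd => by
    have := Subgroup.mem_bot.mp ((hD d).mp hd).2
    exact mul_inv_eq_one.mp this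
  let G : Set X := (C' : Set X) ∪ {t'}
  have hDG : D ≤ Subgroup.closure G := fun d hd => Subgroup.subset_closure (Or.inl (hFC' (hDF hd)))
  have hwc : ∀ x ∈ R, ∀ w ∈ F, x * w = w * x := fun x hx w hw => commutatorElement_eq_one_iff_mul_comm.mp (hcen x hx w hw)
  have hconjC : ∀ x ∈ C', t' * x * t'⁻¹ = ⁅t', x⁆ * x := fun x _ => by simp only [commutatorElement_def]; group
  have hbound := gen_section h4 G D hDG
    (by
      rintro g (hg | hg) d hd
      · rw [hwc g (hC'R hg) d (hDF hd), mul_inv_cancel_right]; exact hd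
      · rw [Set.mem_singleton_iff.mp hg, hDfix d hd]; exact hd)
    (by
      have key : ∀ x ∈ C', ⁅t', x⁆ ∈ D := fun x hx => by
        obtain ⟨hxR, hw⟩ := (hC' x).mp hx
        refine hmemD _ hw ?_
        set w := ⁅t', x⁆ with hwdef
        have e2 : t' * (t' * x * t'⁻¹) * t'⁻¹ = x := by
          rw [show t' * (t' * x * t'⁻¹) * t'⁻¹ = t' ^ 2 * x * (t' ^ 2)⁻¹ by rw [pow_two]; group,
            ← hwc x hxR _ ht'2, mul_inv_cancel_right]
        rw [hconjC x hx, ← hwdef, show t' * (w * x) * t'⁻¹ = (t' * w * t'⁻¹) * (t' * x * t'⁻¹) by group,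
          hconjC x hx, ← hwdef, ← mul_assoc] at e2
        have e3 : t' * w * t'⁻¹ * w = 1 := mul_right_cancel (e2.trans (one_mul x).symm)
        rw [eq_inv_of_mul_eq_one_left e3]
        exact inv_eq_of_mul_eq_one_right (by rw [← pow_two]; exact hexp w hw)
      rintro a (ha | ha) b (hb | hb)
      · obtain ⟨haR, hwa⟩ := (hC' a).mp ha
        obtain ⟨hbR, hwb⟩ := (hC' b).mp hb
        refine hmemD _ (h.comm a haR b hbR) ?_
        set w := ⁅t', a⁆
        set v := ⁅t', b⁆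
        calc t' * ⁅a, b⁆ * t'⁻¹ = ⁅t' * a * t'⁻¹, t' * b * t'⁻¹⁆ := by simp only [commutatorElement_def]; group
          _ = ⁅w * a, v * b⁆ := by rw [hconjC a ha, hconjC b hb]
          _ = ⁅a, b⁆ := by
            have c1 : Commute a w := hwc a haR w hwa
            have c2 : Commute b w := hwc b hbR w hwa
            have c3 : Commute a v := hwc a haR v hwb
            have c5 : Commute w v := hwc w (h.le hwa) v hwb
            simp only [commutatorElement_def, mul_inv_rev]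
            calc w * a * (v * b) * (a⁻¹ * w⁻¹) * (b⁻¹ * v⁻¹)
                = w * (a * v) * b * a⁻¹ * (w⁻¹ * b⁻¹) * v⁻¹ := by group
              _ = w * (v * a) * b * a⁻¹ * (b⁻¹ * w⁻¹) * v⁻¹ := by rw [c3.eq, c2.inv_inv.eq]
              _ = w * v * (a * b * a⁻¹ * b⁻¹) * (w⁻¹ * v⁻¹) := by group
              _ = (a * b * a⁻¹ * b⁻¹) * (w * v) * (w⁻¹ * v⁻¹) := by
                rw [← hwc (a * b * a⁻¹ * b⁻¹) (R.mul_mem (R.mul_mem (R.mul_mem haR hbR) (R.inv_mem haR)) (R.inv_mem hbR))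
                  (w * v) (F.mul_mem hwa hwb)]
              _ = _ := by rw [c5.eq]; group
      · rw [Set.mem_singleton_iff.mp hb, ← commutatorElement_inv]; exact D.inv_mem (key a ha)
      · rw [Set.mem_singleton_iff.mp ha]; exact key b hb
      · rw [Set.mem_singleton_iff.mp ha, Set.mem_singleton_iff.mp hb, commutatorElement_self]; exact D.one_mem)
    (by
      rintro a (ha | ha)
      · obtain ⟨haR, hwa⟩ := (hC' a).mp ha
        refine hmemD _ (h.sq a haR) ?_
        rw [← conj_pow, hconjC a ha, (show Commute ⁅t', a⁆ a from (hwc a haR _ hwa).symm).mul_pow, hexp _ hwa, one_mul]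
      · rw [Set.mem_singleton_iff.mp ha]
        refine hmemD _ ht'2 ?_
        rw [pow_two]; group)
  have hlt : C' < Subgroup.closure G := lt_of_le_not_ge (fun x hx => Subgroup.subset_closure (Or.inl hx))
    fun hle => ht'R (hC'R (hle (Subgroup.subset_closure (Or.inr rfl))))
  have h2 : 2 * Nat.card C' ≤ Nat.card (Subgroup.closure G) := by
    obtain ⟨k, hk⟩ := Subgroup.card_dvd_of_le hlt.le
    have h0 : k ≠ 0 := fun e => by rw [e, mul_zero] at hk; exact Nat.card_pos.ne' hk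
    have h1 : k ≠ 1 := fun e => hlt.ne (Subgroup.eq_of_le_of_card_ge hlt.le (by rw [hk, e, mul_one]))
    rw [hk, mul_comm]
    exact Nat.mul_le_mul_left _ (by omega)
  rw [hC'c, hc] at h2
  rw [hDc] at hbound
  omega

end CfsgLib.RankFourTwo.Five
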