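import Cfsg.Agent.RankFourTwo.Five.Four
import Cfsg.Agent.S4218
import Cfsg.Agent.PGroup.Critical

/-! The 2-radical of a 2-constrained group of sectional rank four over `A₅`. -/

set_option autoImplicit false

namespace CfsgLib.RankFourTwo.Five

open scoped commutatorElement

variable {X : Type*} [Group X] [Finite X]

/-- Elements of odd prime order lift through a 2-group. -/
theorem exists_lift {G : Type*} [Group G] (f : X →* G) (hf : Function.Surjective f) (hk : IsPGroup 2 f.ker)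
    {p : ℕ} (hp : p.Prime) (hp2 : p ≠ 2) (g : G) (hg : g ^ p = 1) : ∃ x, f x = g ∧ x ^ p = 1 := by
  haveI : Fact (Nat.Prime 2) := ⟨Nat.prime_two⟩
  obtain ⟨a, ha⟩ := IsPGroup.iff_card.mp hk
  obtain ⟨x, rfl⟩ := hf g
  obtain ⟨m, hm⟩ := exists_pow_eq_self_of_coprime (x := f x) (n := 2 ^ a)
    (Nat.Coprime.coprime_dvd_right (orderOf_dvd_of_pow_eq_one hg)
      (Nat.Coprime.pow_left a ((Nat.coprime_primes Nat.prime_two hp).mpr (Ne.symm hp2))))
  refine ⟨x ^ (2 ^ a * m), by rw [map_pow, pow_mul, hm], ?_⟩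
  have h1 : (⟨x ^ p, by rw [MonoidHom.mem_ker, map_pow, hg]⟩ : f.ker) ^ (2 ^ a) = 1 := by
    rw [← ha]; exact pow_card_eq_one'
  have h2 : (x ^ p) ^ (2 ^ a) = 1 := congrArg Subtype.val h1
  rw [← pow_mul, mul_comm (2 ^ a * m) p, ← mul_assoc, pow_mul, pow_mul, h2, one_pow]

variable {R : Subgroup X} {s : X}

theorem mem_of_map_mem {N M : Subgroup X} [N.Normal] (hM : N ≤ M) {x : X}
    (hx : QuotientGroup.mk' N x ∈ M.map (QuotientGroup.mk' N)) : x ∈ M := by
  obtain ⟨m, hm, e⟩ := hx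
  have : m⁻¹ * x ∈ N := QuotientGroup.eq.mp e
  have := M.mul_mem hm (hM this)
  rwa [mul_inv_cancel_left] at this

theorem card_map_mk {N M : Subgroup X} [N.Normal] (hM : N ≤ M) :
    Nat.card M = Nat.card (M.map (QuotientGroup.mk' N)) * Nat.card N := by
  let f := (QuotientGroup.mk' N).comp M.subtype
  have h1 := f.ker.card_mul_index
  have hk : f.ker = N.subgroupOf M := by
    rw [← MonoidHom.comap_ker, QuotientGroup.ker_mk']; rfl
  rw [Subgroup.index_ker, MonoidHom.range_comp, Subgroup.range_subtype, hk,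
    Nat.card_congr (Subgroup.subgroupOfEquivOfLe hM).toEquiv, mul_comm] at h1
  exact h1.symm

/-- A five-element is trivial or free on an elementary layer of order at most 16. -/
theorem triv_or_fpf {M N : Subgroup X} [M.Normal] [N.Normal] (hNM : N ≤ M) (hsq : ∀ x ∈ M, x ^ 2 ∈ N)
    (hle : Nat.card M ≤ 16 * Nat.card N) (hM : IsPGroup 2 M) (hs : s ^ 5 = 1) :
    (∀ x ∈ M, ⁅s, x⁆ ∈ N) ∨ (Nat.card M = 16 * Nat.card N ∧ ∀ x ∈ M, ⁅s, x⁆ ∈ N → x ∈ N) := by
  classical
  haveI : Fact (Nat.Prime 5) := ⟨Nat.prime_five⟩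
  haveI : Fact (Nat.Prime 2) := ⟨Nat.prime_two⟩
  obtain ⟨ρ, hρ⟩ := exists_layerHom M N
  set V := M ⧸ N.subgroupOf M with hV
  have hcV := card_subgroupOf hNM
  obtain ⟨k, hk⟩ := IsPGroup.iff_card.mp (hM.to_quotient (N.subgroupOf M))
  let S : Equiv.Perm V := (ρ s).toEquiv
  have hpow : ∀ (n : ℕ) (v : V), (S ^ n) v = ρ (s ^ n) v := by
    intro n
    induction n with
    | zero => intro v; simp
    | succ n ih => intro v; rw [pow_succ', Equiv.Perm.mul_apply, pow_succ', map_mul, MulAut.mul_apply, ← ih]; rfl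
  have h5 := card_mod (p := 5) S (Equiv.ext fun v => by rw [hpow, hs, map_one]; rfl)
  let Fx : Subgroup V := (ρ s).toMonoidHom.eqLocus (MonoidHom.id V)
  have hfx : Nat.card {v // S v = v} = Nat.card Fx := rfl
  rw [hfx, hk] at h5
  obtain ⟨j, hj, hFj⟩ := (Nat.dvd_prime_pow Nat.prime_two).mp (hk ▸ Subgroup.card_subgroup_dvd_card Fx)
  have hk4 : k ≤ 4 := by
    by_contra hk4
    have h32 : 2 ^ 5 ≤ 2 ^ k := Nat.pow_le_pow_right (by norm_num) (by omega)
    rw [hcV, hk] at hle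
    have := Nat.mul_le_mul_left (Nat.card N) h32
    have : 0 < Nat.card N := Nat.card_pos
    omega
  rw [hFj] at h5
  have hkey : ∀ (m : M), QuotientGroup.mk m ∈ Fx ↔ ⁅s, (m : X)⁆ ∈ N := by
    intro m
    show ρ s (QuotientGroup.mk m) = QuotientGroup.mk m ↔ _
    rw [hρ, QuotientGroup.eq_iff_div_mem, div_eq_mul_inv, Subgroup.mem_subgroupOf, commutatorElement_def]
    rfl
  have hcases : j = k ∨ (j = 0 ∧ k = 4) := by
    unfold Nat.ModEq at h5
    interval_cases k <;> interval_cases j <;> simp_all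
  rcases hcases with e | ⟨e, e'⟩
  · refine Or.inl fun x hx => (hkey ⟨x, hx⟩).mp ?_
    rw [Subgroup.eq_top_of_card_eq Fx (by rw [hFj, hk, e])]
    exact Subgroup.mem_top _
  · refine Or.inr ⟨by rw [hcV, hk, e', mul_comm]; norm_num, fun x hx hx' => ?_⟩
    have hm := (hkey ⟨x, hx⟩).mpr hx'
    rw [Subgroup.card_eq_one.mp (show Nat.card Fx = 1 by rw [hFj, e, pow_zero]), Subgroup.mem_bot,
      QuotientGroup.eq_one_iff] at hm
    exact Subgroup.mem_subgroupOf.mp hm

/-- A chief factor below a normal subgroup of a normal 2-subgroup. -/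
theorem exists_chief (h4 : Cfsg.SectionalPRankLE 2 4 X) [R.Normal] (hR : IsPGroup 2 R) (hs : s ^ 5 = 1)
    (htop : ∀ N : Subgroup X, N.Normal → R ≤ N → s ∈ N → N = ⊤) (M : Subgroup X) [M.Normal] (hMR : M ≤ R)
    (hM : M ≠ ⊥) :
    ∃ N : Subgroup X, N.Normal ∧ N ≤ M ∧ (∀ x ∈ M, x ^ 2 ∈ N) ∧ (∀ r ∈ R, ∀ x ∈ M, ⁅r, x⁆ ∈ N) ∧
      ((Nat.card M = 2 * Nat.card N ∧ ∀ g : X, ∀ x ∈ M, ⁅g, x⁆ ∈ N) ∨
        (Nat.card M = 16 * Nat.card N ∧ ∀ x ∈ M, ⁅s, x⁆ ∈ N → x ∈ N)) := by
  classical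
  haveI : Fact (Nat.Prime 2) := ⟨Nat.prime_two⟩
  obtain ⟨N, ⟨hNn, hNlt⟩, hmax⟩ := (Set.toFinite {N : Subgroup X | N.Normal ∧ N < M}).exists_maximal
    ⟨⊥, inferInstance, bot_lt_iff_ne_bot.mpr hM⟩
  haveI := hNn
  have hirr : ∀ L : Subgroup X, L.Normal → N ≤ L → L ≤ M → (∃ x ∈ L, x ∉ N) → L = M := by
    intro L hL hNL hLM ⟨x, hxL, hxN⟩
    by_contra hne
    exact hxN (hmax ⟨hL, lt_of_le_of_ne hLM hne⟩ hNL hxL)
  -- central modulo `N`
  have hcen : ∀ r ∈ R, ∀ x ∈ M, ⁅r, x⁆ ∈ N := by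
    let π := QuotientGroup.mk' N
    haveI : (R.map π).Normal := (inferInstance : R.Normal).map _ (QuotientGroup.mk'_surjective N)
    let L : Subgroup X := M ⊓ (Subgroup.centralizer (R.map π : Set (X ⧸ N))).comap π
    have hmL : ∀ x, x ∈ L ↔ x ∈ M ∧ ∀ r ∈ R, ⁅r, x⁆ ∈ N := by
      intro x
      rw [Subgroup.mem_inf, Subgroup.mem_comap, Subgroup.mem_centralizer_iff]
      refine and_congr Iff.rfl ⟨fun h r hr => ?_, ?_⟩
      · have := h _ ⟨r, hr, rfl⟩
        rw [← commutatorElement_eq_one_iff_mul_comm, ← map_commutatorElement] at this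
        exact (QuotientGroup.eq_one_iff _).mp this
      · rintro h _ ⟨r, hr, rfl⟩
        rw [← commutatorElement_eq_one_iff_mul_comm, ← map_commutatorElement]
        exact (QuotientGroup.eq_one_iff _).mpr (h r hr)
    have hLM : L = M := by
      refine hirr L inferInstance (fun x hx => (hmL x).mpr ⟨hNlt.le hx, fun r _ => ?_⟩) inf_le_left ?_
      · rw [commutatorElement_def]
        exact N.mul_mem (hNn.conj_mem x hx r) (N.inv_mem hx)
      · haveI : (N.subgroupOf R).Normal := hNn.subgroupOf R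
        haveI : (M.subgroupOf R).Normal := (inferInstance : M.Normal).subgroupOf R
        have hlt : N.subgroupOf R < M.subgroupOf R := by
          refine lt_of_le_not_ge (fun x hx => hNlt.le hx) fun hle => hNlt.not_ge fun x hx => ?_
          exact hle (show (⟨x, hMR hx⟩ : R) ∈ M.subgroupOf R from hx)
        obtain ⟨x, hx, hxN, hxc⟩ := CfsgLib.PGroup.exists_mem_central_mod hR hlt
        refine ⟨x, (hmL x).mpr ⟨hx, fun r hr => ?_⟩, hxN⟩
        have : ((⁅x, ⟨r, hr⟩⁆ : R) : X) ∈ N := hxc ⟨r, hr⟩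
        rw [← commutatorElement_inv]
        exact N.inv_mem (by simpa [commutatorElement_def] using this)
    exact fun r hr x hx => ((hmL x).mp (hLM.symm ▸ hx)).2 r hr
  -- exponent two
  have hsq : ∀ x ∈ M, x ^ 2 ∈ N := by
    have hmul : ∀ a ∈ M, ∀ b ∈ M, a ^ 2 ∈ N → b ^ 2 ∈ N → (a * b) ^ 2 ∈ N := by
      intro a ha b hb ha2 hb2
      have e : (a * b) ^ 2 = a ^ 2 * (a⁻¹ * ⁅b, a⁆ * a⁻¹⁻¹) * b ^ 2 := by
        simp only [commutatorElement_def, pow_two]; group
      rw [e]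
      exact N.mul_mem (N.mul_mem ha2 (hNn.conj_mem _ (hcen b (hMR hb) a ha) _)) hb2
    let L : Subgroup X :=
      { carrier := {x | x ∈ M ∧ x ^ 2 ∈ N}
        one_mem' := ⟨M.one_mem, by rw [one_pow]; exact N.one_mem⟩
        mul_mem' := fun {a b} ha hb => ⟨M.mul_mem ha.1 hb.1, hmul a ha.1 b hb.1 ha.2 hb.2⟩
        inv_mem' := fun {a} ha => ⟨M.inv_mem ha.1, by rw [inv_pow]; exact N.inv_mem ha.2⟩ }
    haveI : L.Normal := ⟨fun x hx g => ⟨(inferInstance : M.Normal).conj_mem x hx.1 g, by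
      rw [conj_pow]; exact hNn.conj_mem _ hx.2 g⟩⟩
    have hLM : L = M := by
      refine hirr L inferInstance (fun x hx => ⟨hNlt.le hx, N.pow_mem hx 2⟩) (fun x hx => hx.1) ?_
      obtain ⟨x, hx, hxN⟩ := SetLike.exists_of_lt hNlt
      obtain ⟨m, hm⟩ := hR ⟨x, hMR hx⟩
      have hm' : x ^ 2 ^ m = 1 := congrArg Subtype.val hm
      have hex : ∃ m : ℕ, x ^ 2 ^ m ∈ N := ⟨m, by rw [hm']; exact N.one_mem⟩
      have hpos : Nat.find hex ≠ 0 := fun e => hxN (by simpa [e] using Nat.find_spec hex)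
      obtain ⟨j, hj⟩ := Nat.exists_eq_succ_of_ne_zero hpos
      refine ⟨x ^ 2 ^ j, ⟨M.pow_mem hx _, ?_⟩, Nat.find_min hex (by omega)⟩
      rw [← pow_mul, ← pow_succ, ← Nat.succ_eq_add_one, ← hj]
      exact Nat.find_spec hex
    exact fun x hx => (hLM.symm ▸ hx : x ∈ L).2
  refine ⟨N, hNn, hNlt.le, hsq, hcen, ?_⟩
  have hle := CfsgLib.RankTwoTwo.Four.section_bound h4 M N hNlt.le (fun x hx z hz => hcen x (hMR hx) z hz) hsq
  have hMp : IsPGroup 2 M := hR.to_le hMR
  rcases triv_or_fpf hNlt.le hsq hle hMp hs with h | h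
  · left
    let π := QuotientGroup.mk' N
    haveI : (M.map π).Normal := (inferInstance : M.Normal).map _ (QuotientGroup.mk'_surjective N)
    have hall : ∀ g : X, ∀ x ∈ M, ⁅g, x⁆ ∈ N := by
      have key := htop ((Subgroup.centralizer (M.map π : Set (X ⧸ N))).comap π) inferInstance
        (fun r hr => by
          rw [Subgroup.mem_comap, Subgroup.mem_centralizer_iff]
          rintro _ ⟨x, hx, rfl⟩
          refine (commutatorElement_eq_one_iff_mul_comm.mp ?_).symm
          rw [← map_commutatorElement]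
          exact (QuotientGroup.eq_one_iff _).mpr (hcen r hr x hx))
        (by
          rw [Subgroup.mem_comap, Subgroup.mem_centralizer_iff]
          rintro _ ⟨x, hx, rfl⟩
          refine (commutatorElement_eq_one_iff_mul_comm.mp ?_).symm
          rw [← map_commutatorElement]
          exact (QuotientGroup.eq_one_iff _).mpr (h x hx))
      intro g x hx
      have hg : π g ∈ Subgroup.centralizer (M.map π : Set (X ⧸ N)) := (key ▸ Subgroup.mem_top g :)
      have := commutatorElement_eq_one_iff_mul_comm.mpr (Subgroup.mem_centralizer_iff.mp hg _ ⟨x, hx, rfl⟩).symm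
      rw [← map_commutatorElement] at this
      exact (QuotientGroup.eq_one_iff _).mp this
    refine ⟨?_, hall⟩
    obtain ⟨x, hx, hxN⟩ := SetLike.exists_of_lt hNlt
    let L := (Subgroup.zpowers (π x)).comap π
    haveI : (Subgroup.zpowers (π x)).Normal := ⟨fun w hw g => by
      obtain ⟨n, rfl⟩ := Subgroup.mem_zpowers_iff.mp hw
      obtain ⟨g, rfl⟩ := QuotientGroup.mk'_surjective N g
      have hc : π g * π x = π x * π g := commutatorElement_eq_one_iff_mul_comm.mp (by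
        rw [← map_commutatorElement]; exact (QuotientGroup.eq_one_iff _).mpr (hall g x hx))
      rw [((show Commute (π g) (π x) from hc).zpow_right n).eq, mul_inv_cancel_right]
      exact hw⟩
    have hxM : Subgroup.zpowers (π x) ≤ M.map π := Subgroup.zpowers_le.mpr ⟨x, hx, rfl⟩
    have hL : L = M := hirr L inferInstance
      (fun w hw => by
        show π w ∈ Subgroup.zpowers (π x)
        rw [show π w = 1 from (QuotientGroup.eq_one_iff w).mpr hw]
        exact one_mem _)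
      (fun w hw => mem_of_map_mem hNlt.le (hxM hw))
      ⟨x, Subgroup.mem_zpowers _, hxN⟩
    have h2 : Nat.card (M.map π) = 2 := by
      rw [← hL, Subgroup.map_comap_eq_self_of_surjective (QuotientGroup.mk'_surjective N), Nat.card_zpowers]
      exact orderOf_eq_prime (by rw [← map_pow]; exact (QuotientGroup.eq_one_iff _).mpr (hsq x hx))
        (fun e => hxN ((QuotientGroup.eq_one_iff x).mp e))
    rw [card_map_mk hNlt.le, h2]
  · exact Or.inr h

/-- The 2-radical over `A₅`. -/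
theorem radical_over_five (h4 : Cfsg.SectionalPRankLE 2 4 X) {R : Subgroup X} [R.Normal] (hR : IsPGroup 2 R)
    (hC : Subgroup.centralizer (R : Set X) ≤ R) (f : X →* alternatingGroup (Fin 5)) (hf : Function.Surjective f)
    (hker : f.ker = R) :
    ((∀ r ∈ R, r ^ 2 = 1) ∧ (∀ a ∈ R, ∀ b ∈ R, a * b = b * a) ∧ Nat.card R = 16) ∨
      (Nat.card R = 32 ∧ ∃ A B : Subgroup X, Nonempty (A ≃* QuaternionGroup 2) ∧ Nonempty (B ≃* DihedralGroup 4) ∧
        (∀ a ∈ A, ∀ b ∈ B, a * b = b * a) ∧ A ⊔ B = R ∧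
        ∀ x ∈ R, (∀ g ∈ R, x * g = g * x) ↔ x ∈ A ⊓ B) := by
  classical
  haveI : Fact (Nat.Prime 2) := ⟨Nat.prime_two⟩
  haveI hs5 : IsSimpleGroup (alternatingGroup (Fin 5)) := alternatingGroup.isSimpleGroup (by simp)
  let σ : Equiv.Perm (Fin 5) := finRotate 5
  let τ : Equiv.Perm (Fin 5) := Function.Involutive.toPerm ![0, 4, 3, 2, 1] (fun x => by revert x; decide)
  let η : Equiv.Perm (Fin 5) := Equiv.swap 0 1 * Equiv.swap 1 2
  have hσ : σ ∈ alternatingGroup (Fin 5) := by rw [Equiv.Perm.mem_alternatingGroup]; decide +kernel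
  have hτ : τ ∈ alternatingGroup (Fin 5) := by rw [Equiv.Perm.mem_alternatingGroup]; decide +kernel
  have hη : η ∈ alternatingGroup (Fin 5) := by rw [Equiv.Perm.mem_alternatingGroup]; decide +kernel
  have hk : IsPGroup 2 f.ker := hker.symm ▸ hR
  obtain ⟨s, hs, hs5'⟩ := exists_lift f hf hk Nat.prime_five (by norm_num) ⟨σ, hσ⟩ (Subtype.ext (by
    show σ ^ 5 = 1
    decide +kernel))
  obtain ⟨y, hy, hy3⟩ := exists_lift f hf hk Nat.prime_three (by norm_num) ⟨η, hη⟩ (Subtype.ext (by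
    show η ^ 3 = 1
    decide +kernel))
  obtain ⟨t, ht⟩ := hf ⟨τ, hτ⟩
  have hsR : s ∉ R := fun h => by
    rw [← hker, MonoidHom.mem_ker, hs] at h
    exact (show ¬ σ = 1 by decide +kernel) (congrArg Subtype.val h)
  have hyR : y ∉ R := fun h => by
    rw [← hker, MonoidHom.mem_ker, hy] at h
    exact (show ¬ η = 1 by decide +kernel) (congrArg Subtype.val h)
  have htR : t ∉ R := fun h => by
    rw [← hker, MonoidHom.mem_ker, ht] at h
    exact (show ¬ τ = 1 by decide +kernel) (congrArg Subtype.val h)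
  have ht2 : t ^ 2 ∈ R := by
    rw [← hker, MonoidHom.mem_ker, map_pow, ht]
    exact Subtype.ext (by show τ ^ 2 = 1; decide +kernel)
  have hinv : s * t * s * t⁻¹ ∈ R := by
    rw [← hker, MonoidHom.mem_ker, map_mul, map_mul, map_mul, map_inv, ht, hs]
    exact Subtype.ext (by show σ * τ * σ * τ⁻¹ = 1; decide +kernel)
  have htop : ∀ N : Subgroup X, N.Normal → R ≤ N → s ∈ N → N = ⊤ := by
    intro N hN hRN hsN
    rcases (hN.map f hf).eq_bot_or_eq_top with h | h
    · exfalso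
      have h1 : f s ∈ N.map f := ⟨s, hsN, rfl⟩
      rw [h, Subgroup.mem_bot] at h1
      exact hsR (hker ▸ h1)
    · rw [eq_top_iff]
      intro x _
      obtain ⟨n, hn, e⟩ := (h ▸ Subgroup.mem_top (f x) : f x ∈ N.map f)
      have h2 : n⁻¹ * x ∈ f.ker := by rw [MonoidHom.mem_ker, map_mul, map_inv, e, inv_mul_cancel]
      have := N.mul_mem hn (hRN (hker ▸ h2))
      rwa [mul_inv_cancel_left] at this
  set F := (frattini R).map R.subtype with hFdef
  haveI hFn : F.Normal := CfsgLib.Components.map_subtype_normal (inferInstance : R.Normal) (frattini R)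
  have hFR : F ≤ R := Subgroup.map_subtype_le _
  have hmF : ∀ r : R, r ∈ frattini R → (r : X) ∈ F := fun r hr => ⟨r, hr, rfl⟩
  have hsq : ∀ x ∈ R, x ^ 2 ∈ F := fun x hx => hmF (⟨x, hx⟩ ^ 2) (CfsgLib.PGroup.pow_mem_frattini hR _)
  have hcomm : ∀ x ∈ R, ∀ z ∈ R, ⁅x, z⁆ ∈ F := fun x hx z hz => by
    have := hmF ⁅(⟨x, hx⟩ : R), ⟨z, hz⟩⁆ (CfsgLib.PGroup.commutator_le_frattini hR
      (Subgroup.commutator_mem_commutator trivial trivial))
    simpa [commutatorElement_def] using this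
  have hkerF : ∀ x : X, (∀ r ∈ R, ⁅x, r⁆ ∈ F) → x ∈ R := fun x hx =>
    Cfsg.Agent.S4218.frattini_kernel_le hR hC (fun D hD hDp => by
      have hmap := hD.map f hf
      rcases hmap.eq_bot_or_eq_top with h | h
      · intro d hd
        rw [← hker, MonoidHom.mem_ker]
        have : f d ∈ D.map f := ⟨d, hd, rfl⟩
        rwa [h, Subgroup.mem_bot] at this
      · exfalso
        have := (hDp.map f)
        rw [h] at this
        obtain ⟨n, hn⟩ := IsPGroup.iff_card.mp this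
        rw [Subgroup.card_top, nat_card_alternatingGroup, Nat.card_eq_fintype_card, Fintype.card_fin] at hn
        have h5 : 5 ∣ 2 ^ n := hn ▸ by norm_num [Nat.factorial]
        exact absurd (Nat.prime_five.dvd_of_dvd_pow h5) (by norm_num)) (fun r hr => by
      have := hx r hr
      rwa [commutatorElement_def] at this)
  have hle16 := CfsgLib.RankTwoTwo.Four.section_bound h4 R F hFR hcomm hsq
  obtain ⟨hcard, hfpf⟩ : Nat.card R = 16 * Nat.card F ∧ ∀ x ∈ R, ⁅s, x⁆ ∈ F → x ∈ F :=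
    (triv_or_fpf hFR hsq hle16 hR hs5').resolve_left fun h => hsR (hkerF s h)
  have hymove : ∃ x ∈ R, ⁅y, x⁆ ∉ F := by
    by_contra h
    push Not at h
    exact hyR (hkerF y h)
  have hgen : ∀ N : Subgroup X, N.Normal → (∀ x ∈ R, x ^ 2 ∈ N) → F ≤ N := by
    intro N hN hN2
    refine Subgroup.map_le_iff_le_comap.mpr (CfsgLib.PGroup.frattini_le_of_elementary (p := 2) (fun a b => ?_)
      fun a => hN2 a a.2)
    show ((⁅a, b⁆ : R) : X) ∈ N
    have e : ((⁅a, b⁆ : R) : X) = ((a : X) * b) ^ 2 *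
        ((b : X)⁻¹ * ((a : X) ^ 2)⁻¹ * (b : X)⁻¹⁻¹) * (((b : X)) ^ 2)⁻¹ := by
      simp [commutatorElement_def, pow_two, mul_assoc]
    rw [e]
    exact N.mul_mem (N.mul_mem (hN2 _ (R.mul_mem a.2 b.2)) (hN.conj_mem _ (N.inv_mem (hN2 a a.2)) _))
      (N.inv_mem (hN2 b b.2))
  have hfr : Frame R F s t y := ⟨inferInstance, hFn, hFR, hcard, hsq, hcomm, hfpf, hs5', hy3, ht2, htR, hinv, hymove,
    hgen, htop⟩
  by_cases hF1 : F = ⊥
  · left
    refine ⟨fun r hr => Subgroup.mem_bot.mp (hF1 ▸ hsq r hr), fun a ha b hb =>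
      commutatorElement_eq_one_iff_mul_comm.mp (Subgroup.mem_bot.mp (hF1 ▸ hcomm a ha b hb)), ?_⟩
    rw [hcard, hF1, Subgroup.card_bot]
  obtain ⟨K, hKn, hKF, hKsq, hKc, hKcase⟩ := exists_chief h4 hR hs5' htop F hFR hF1
  haveI := hKn
  rcases hKcase with ⟨hc2, hcall⟩ | ⟨hc16, hKfpf⟩
  swap
  · exfalso
    have hq := hfr.quotient K hKF
    refine hq.false_of_layer (sectional_quotient h4 K) ?_ ?_ ?_ ?_
    · have := card_map_mk (N := K) hKF
      rw [hc16] at this
      exact (Nat.eq_of_mul_eq_mul_right Nat.card_pos this).symm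
    · rintro _ ⟨x, hx, rfl⟩ _ ⟨w, hw, rfl⟩
      rw [← map_commutatorElement]
      exact (QuotientGroup.eq_one_iff _).mpr (hKc x hx w hw)
    · rintro _ ⟨w, hw, rfl⟩
      rw [← map_pow]
      exact (QuotientGroup.eq_one_iff _).mpr (hKsq w hw)
    · rintro _ ⟨w, hw, rfl⟩ e
      rw [← map_commutatorElement] at e
      exact (QuotientGroup.eq_one_iff _).mpr (hKfpf w hw ((QuotientGroup.eq_one_iff _).mp e))
  right
  by_cases hK1 : K = ⊥
  · rw [hK1, Subgroup.card_bot, mul_one] at hc2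
    obtain ⟨-, -, hcen, A, B, hA, hB, hAB, hsup, hinf⟩ := hfr.extraspecial hc2
    exact ⟨by rw [hcard, hc2], A, B, hA, hB, hAB, hsup, fun x hx => by rw [hinf]; exact hcen x hx⟩
  exfalso
  obtain ⟨L, hLn, hLK, hLsq, hLc, hLcase⟩ := exists_chief h4 hR hs5' htop K (hKF.trans hFR) hK1
  haveI := hLn
  have hq := hfr.quotient L (hLK.trans hKF)
  have h4q := sectional_quotient h4 L
  have hsurj := QuotientGroup.mk'_surjective L
  haveI : (K.map (QuotientGroup.mk' L)).Normal := hKn.map _ hsurj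
  have hKq : K.map (QuotientGroup.mk' L) ≤ F.map (QuotientGroup.mk' L) := Subgroup.map_mono hKF
  have hcK := card_map_mk (N := L) hLK
  have hcF := card_map_mk (N := L) (hLK.trans hKF)
  rcases hLcase with ⟨hl2, -⟩ | ⟨hl16, hLfpf⟩
  · refine hq.false_of_four ?_ (K.map (QuotientGroup.mk' L)) hKq ?_
    · refine Nat.eq_of_mul_eq_mul_right (m := Nat.card L) Nat.card_pos ?_
      rw [← hcF, hc2, hl2]; ring
    · refine Nat.eq_of_mul_eq_mul_right (m := Nat.card L) Nat.card_pos ?_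
      rw [← hcK, hl2]
  · have hFsq : ∀ w ∈ F, w ^ 2 ∈ L := by
      intro w hw
      refine hLfpf _ (hKsq w hw) ?_
      set k := ⁅s, w⁆ with hk'
      have hkK : k ∈ K := hcall s w hw
      have e : ⁅s, w ^ 2⁆ = k * (w * k * w⁻¹) := by
        simp only [hk', commutatorElement_def, pow_two]; group
      rw [e, show k * (w * k * w⁻¹) = k * ⁅w, k⁆ * k⁻¹ * k ^ 2 by simp only [commutatorElement_def, pow_two]; group]
      exact L.mul_mem (hLn.conj_mem _ (hLc w (hFR hw) k hkK) k) (hLsq k hkK)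
    have hFc : ∀ a ∈ F, ∀ b ∈ F, ⁅a, b⁆ ∈ L := by
      intro a ha b hb
      have e : ⁅a, b⁆ = (a * b) ^ 2 * (b⁻¹ * (a ^ 2)⁻¹ * b⁻¹⁻¹) * (b ^ 2)⁻¹ := by
        simp [commutatorElement_def, pow_two, mul_assoc]
      rw [e]
      exact L.mul_mem (L.mul_mem (hFsq _ (F.mul_mem ha hb)) (hLn.conj_mem _ (L.inv_mem (hFsq a ha)) _))
        (L.inv_mem (hFsq b hb))
    have := CfsgLib.RankTwoTwo.Four.section_bound h4 F L (hLK.trans hKF) hFc hFsq
    rw [hc2, hl16] at this
    have : 0 < Nat.card L := Nat.card_pos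
    omega

end CfsgLib.RankFourTwo.Five
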